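import Cfsg.Agent.TwoGenTw.Base
import Cfsg.Agent.ChevTw.TwE6Diag

/-! ²E₆(q) is two-generated (owner: helper17). -/

set_option autoImplicit false

namespace Cfsg.Agent.TwoGenTw

open Cfsg.Lie Cfsg.Agent.ChevGrp Cfsg.Agent.ChevTw

/-- The Coxeter word of ²E₆. -/
def coxE6 : List (Fin chevE6.rank) :=
  ([1, 3, 2, 4, 0, 5] : List ℕ).filterMap fun i => if h : i < chevE6.rank then some ⟨i, h⟩ else none

/-- Its cube. -/
def cubeE6 : List (Fin chevE6.rank) := coxE6 ++ coxE6 ++ coxE6

theorem dataE6 :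
    act chevE6 coxE6 42 = 56 ∧
    (List.range 6).map (fun j => chevE6.cartan j 42) = [-1, 0, 2, -1, 0, 0] ∧
    (List.range 6).map (fun j => chevE6.cartan j 56) = [2, 0, -1, 0, 0, 0] ∧
    PairOK chevE6 [42, 37] ([42, 37].map (act chevE6 cubeE6)) 32 ∧
    (([42, 37].map (act chevE6 cubeE6)).filter fun b => decide (coefI chevE6 42 b ≠ 0)) = [28] ∧
    coefI chevE6 42 28 = 1 ∧
    (∀ L ∈ ([[46], [25], [39], [29, 34], [56, 36], [15, 35]] : List (List ℕ)),
      reachCls chevE6 [coxE6] 11 [[42, 37], [32]] L = true) ∧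
    (twE6.root 32 = 32 ∧ 32 < chevE6.nroots ∧ 56 < chevE6.nroots ∧ 42 < chevE6.nroots) ∧
    CommList chevE6 [42, 37] := by
  unfold CommList
  decide +kernel

variable {K : Type*} [Field K] [Fintype K] {q : ℕ}

/-- The exponents of the short class. -/
def expE6 (q r : ℕ) : ℕ := if r = 37 then q else 1

set_option maxHeartbeats 2000000 in
theorem two_gen_E6 (hq : IsPrimePow q) (hK : Fintype.card K = q ^ 2) :
    ∃ a b : ↥(twistedE6 K q), Subgroup.closure ({a, b} : Set ↥(twistedE6 K q)) = ⊤ := by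
  obtain ⟨len, hR⟩ := (rulesE6 K).root
  obtain ⟨d1, d2, d2', d3, d4, d5, d6, ⟨d8, d9, d10, d11⟩, d12⟩ := dataE6
  have hq1 := hq.one_lt
  set S := glSys (rulesE6 K)
  set T := twistE6 hq hK
  set O := orbE6 hq hK
  set W := grpE6 hq hK
  have hS := rulesE6 K
  have hM := glSys_HMul (rulesE6 K) hR
  let J0 : Fin twE6.nOrb := ⟨0, by decide⟩
  let J1 : Fin twE6.nOrb := ⟨1, by decide⟩
  let J2 : Fin twE6.nOrb := ⟨2, by decide⟩
  let J3 : Fin twE6.nOrb := ⟨3, by decide⟩
  have ep := twE6_ok.enum_posJ (T := T) (fun _ => rfl) rfl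
  have en := twE6_ok.enum_negJ (T := T) (fun _ => rfl) rfl hR
  let C : AbClass T (O.posJ J2) :=
    { L := [42, 37]
      a := 42
      enum := ep J2
      comm := d12
      mem_a := ((ep J2).2 42).1 (show 42 ∈ [42, 37] by simp)
      X := fun s => S.P [42, 37] fun r => s ^ expE6 q r
      spec := fun g => by
        rw [show O.posJ J2 = (bif false then O.negJ J2 else O.posJ J2) from rfl, fixE6 hq hK J2 false g]
        refine exists_congr fun t => ?_
        simp [Sys.P, expE6, J2, S, glSys]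
      coef := fun s => ⟨fun r => s ^ expE6 q r, rfl, by simp [expE6]⟩ }
  have hA : UClosed chevE6 len (htHom chevE6) (O.posJ J2) := O.posJ_closed hR J2
  obtain ⟨v, hv⟩ := exists_units_powers K
  have hcardU : Nat.card Kˣ = q ^ 2 - 1 := by rw [Nat.card_units, Nat.card_eq_fintype_card, hK]
  have hq2 : 4 ≤ q ^ 2 := by nlinarith
  have hgen : ∀ z : Kˣ, ∃ i : ℕ, v ^ i = z := fun z => Submonoid.mem_powers_iff _ _ |>.1 (hv z)
  set c := mkE6 (1 : Kˣ) 1 v⁻¹ 1 ((v⁻¹) ^ q) 1 with hcdef
  have hc : c ∈ fixTorusE6 K q := (mem_mk_iff c).2 (by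
    refine ⟨?_, ?_, ?_, ?_, ?_, ?_⟩ <;> simp [hcdef, mkE6, ← pow_mul] <;>
      exact (pow_mul _ _ _).trans (units_pow_qq hK v))
  set h := S.tau hS hR hM c
  have hh : h ∈ S.Hbar := tau_mem_Hbar hS hR hM c
  have hhT : h ∈ W.Tw := tau_mem_E6 hq hK hR hc
  set ks : List (Fin twE6.nOrb) := [J0, J1, J2, J3]
  set n := (ks.map (W.nJ hS hR)).prod
  obtain ⟨hn, hw, hnT⟩ := W.prod_nJ hS hR ks
  have hword : O.word ks = coxE6 := rfl
  rw [hword] at hw
  have hchar : ∀ s, (List.range 6).map (fun j => chevE6.cartan j s) =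
      [chevE6.cartan 0 s, chevE6.cartan 1 s, chevE6.cartan 2 s, chevE6.cartan 3 s, chevE6.cartan 4 s,
        chevE6.cartan 5 s] := fun s => rfl
  rw [hchar] at d2 d2'
  simp only [List.cons.injEq, and_true] at d2 d2'
  have e42 : (∏ j : Fin chevE6.rank, c j ^ chevE6.cartan j 42) = (v ^ 2)⁻¹ := by
    show (∏ j : Fin 6, c j ^ chevE6.cartan j 42) = _
    simp [Fin.prod_univ_six, hcdef, mkE6, d2, zpow_ofNat]
  have e56 : (∏ j : Fin chevE6.rank, c j ^ chevE6.cartan j 56) = v := by
    show (∏ j : Fin 6, c j ^ chevE6.cartan j 56) = _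
    simp [Fin.prod_univ_six, hcdef, mkE6, d2', zpow_ofNat]
  refine two_gen_of_le _ hhT (show n * C.X 1 ∈ twistedE6 K q from
    mul_mem hnT (W.fixPos_mem J2 ((C.spec _).2 ⟨1, rfl⟩))) fun M hhM haM => ?_
  obtain ⟨hnM, hA1⟩ := C.core_mem W hS hR hM hA hh hhT hn hnT hw
    (lam := (((v ^ 2)⁻¹ : Kˣ) : K)) (μ := (v : K))
    (by rw [tau_conj hS hR hM c d11, e42, mul_one])
    (by
      rw [Ne, Units.val_eq_one, inv_eq_one]
      intro h2
      have h3 : orderOf v ≤ 2 := orderOf_le_of_pow_eq_one (by norm_num) h2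
      have h4 : orderOf v = Nat.card Kˣ := orderOf_eq_card_of_forall_mem_zpowers fun z => by
        obtain ⟨i, hi⟩ := hgen z
        exact ⟨i, by simpa using hi⟩
      omega)
    (fun t => by rw [show act chevE6 coxE6 C.a = 56 from d1, tau_conj hS hR hM c d10, e56])
    (by
      rw [Ne, Units.val_eq_one]
      exact ne_one_of_gen (by omega) hgen)
    (units_pow_surj hgen)
    hhM haM
  have hwM : HasWord W M coxE6 := ⟨_, hnM, hnT, hw⟩
  have hw3 : HasWord W M cubeE6 := by
    obtain ⟨-, hw', hnT'⟩ := W.prod_nJ hS hR (ks ++ ks ++ ks)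
    refine ⟨_, ?_, hnT', ?_⟩
    · rw [List.map_append, List.map_append, List.prod_append, List.prod_append]
      exact mul_mem (mul_mem hnM hnM) hnM
    · rwa [show O.word (ks ++ ks ++ ks) = cubeE6 from rfl] at hw'
  have h32 : Good T M ({32} : Set ℕ) :=
    good_root hR W C hA hA1 (q := q) (expE6 q)
      (fun l hl r hr => by
        simp only [expE6]
        split_ifs
        · exact hl
        · exact pow_one l)
      (fun s => rfl)
      (fun r hr => by
        rw [hK]
        have h2 : q ^ 1 < q ^ 2 := Nat.pow_lt_pow_right hq1 (by norm_num)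
        rw [pow_one] at h2
        simp only [expE6]
        split_ifs <;> omega)
      (fun r hr r' hr' e => by
        simp only [C, List.mem_cons, List.not_mem_nil, or_false] at hr hr'
        rcases hr with rfl | rfl <;> rcases hr' with rfl | rfl <;> simp [expE6] at e ⊢ <;> omega)
      hw3 d9 d3 (a0 := 42) (b0 := 28) (by simp [C]) d4 (by rw [d5]; norm_num) d8 (ε := 1)
      (fun t => by rw [twistE6_f hq hK (by simp), one_mul])
      (Or.inr (by
        have : ({32} : Set ℕ) = O.negJ J1 := Set.ext fun r => by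
          rw [Set.mem_singleton_iff, ← (en J1).2 r]
          simp [J1, TwData.posList, twE6, negE6.2.1]
        rw [this]
        exact O.negJ_closed hR J1))
  have hstart : ∀ L ∈ ([[42, 37], [32]] : List (List ℕ)),
      (∀ r ∈ L, r < chevE6.nroots) ∧ Good T M {r | r ∈ L} := by
    intro L hL
    simp only [List.mem_cons, List.not_mem_nil, or_false] at hL
    rcases hL with rfl | rfl
    · exact ⟨fun r hr => hA.lt r (((ep J2).2 r).1 hr),
        (show Good T M (O.posJ J2) from hA1).mono fun r hr => ((ep J2).2 r).1 hr⟩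
    · refine ⟨fun r hr => ?_, h32.mono fun r hr => ?_⟩
      · rw [List.mem_singleton] at hr; omega
      · exact List.mem_singleton.1 hr
  have hreach : ∀ L ∈ ([[46], [25], [39], [29, 34], [56, 36], [15, 35]] : List (List ℕ)),
      Good T M {r | r ∈ L} :=
    fun L hL => good_of_reach hR (W := W) (by simpa using hwM) 11 hstart (d6 L hL)
  obtain ⟨n46, n39, n42, n37, n56, n36, -⟩ := negE6
  have hpos : ∀ (J : Fin twE6.nOrb) (L : List ℕ), twE6.posList J = L → Good T M {r | r ∈ L} →
      Good T M (O.posJ J) := fun J L e g => g.mono fun r hr => e ▸ ((ep J).2 r).2 hr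
  have hneg : ∀ (J : Fin twE6.nOrb) (L : List ℕ), (twE6.posList J).map chevE6.neg = L →
      Good T M {r | r ∈ L} → Good T M (O.negJ J) := fun J L e g => g.mono fun r hr => e ▸ ((en J).2 r).2 hr
  refine le_of_good W fun J => ?_
  fin_cases J
  · exact ⟨hpos J0 [46] rfl (hreach _ (by simp)),
      hneg J0 [25] (by simp [J0, TwData.posList, twE6, n46]) (hreach _ (by simp))⟩
  · exact ⟨hpos J1 [39] rfl (hreach _ (by simp)),
      h32.mono fun r hr => by
        have := ((en J1).2 r).2 hr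
        simpa [J1, TwData.posList, twE6, n39] using this⟩
  · exact ⟨hA1, hneg J2 [29, 34] (by simp [J2, TwData.posList, twE6, n42, n37]) (hreach _ (by simp))⟩
  · exact ⟨hpos J3 [56, 36] rfl (hreach _ (by simp)),
      hneg J3 [15, 35] (by simp [J3, TwData.posList, twE6, n56, n36]) (hreach _ (by simp))⟩

end Cfsg.Agent.TwoGenTw
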