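import Cfsg.Agent.TwoGenTw.Base
import Cfsg.Agent.ChevTw.TwD4Diag

/-! ³D₄(q) is two-generated (owner: helper17). -/

set_option autoImplicit false

namespace Cfsg.Agent.TwoGenTw

open Cfsg.Lie Cfsg.Agent.ChevGrp Cfsg.Agent.ChevTw

/-- The Coxeter word of ³D₄. -/
def coxD4 : List (Fin chevD4.rank) :=
  ([1, 0, 2, 3] : List ℕ).filterMap fun i => if h : i < chevD4.rank then some ⟨i, h⟩ else none

theorem dataD4 :
    act chevD4 coxD4 18 = 4 ∧
    (List.range 4).map (fun j => chevD4.cartan j 18) = [2, -1, 0, 0] ∧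
    (List.range 4).map (fun j => chevD4.cartan j 4) = [-1, -1, 1, 1] ∧
    PairOK chevD4 [18, 13, 12] ([18, 13, 12].map (act chevD4 coxD4)) 9 ∧
    (([18, 13, 12].map (act chevD4 coxD4)).filter fun b => decide (coefI chevD4 18 b ≠ 0)) = [4] ∧
    coefI chevD4 18 4 = 1 ∧
    reachCls chevD4 [coxD4] 5 [[18, 13, 12], [9]] [5, 10, 11] = true ∧
    reachCls chevD4 [coxD4] 5 [[18, 13, 12], [9]] [14] = true ∧
    (twD4.root 9 = 9 ∧ 9 < chevD4.nroots ∧ 4 < chevD4.nroots ∧ 18 < chevD4.nroots) ∧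
    CommList chevD4 [18, 13, 12] := by
  unfold CommList
  decide +kernel

variable {K : Type*} [Field K] [Fintype K] {q : ℕ}

/-- The exponents of the short class. -/
def expD4 (q r : ℕ) : ℕ := if r = 13 then q else if r = 12 then q ^ 2 else 1

set_option maxHeartbeats 2000000 in
theorem two_gen_D4 (hq : IsPrimePow q) (hK : Fintype.card K = q ^ 3) :
    ∃ a b : ↥(twistedD4 K q), Subgroup.closure ({a, b} : Set ↥(twistedD4 K q)) = ⊤ := by
  obtain ⟨len, hR⟩ := (rulesD4 K).root
  obtain ⟨d1, d2, d2', d3, d4, d5, d6, d7, ⟨d8, d9, d10, d11⟩, d12⟩ := dataD4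
  have hq1 := hq.one_lt
  set S := glSys (rulesD4 K)
  set T := twistD4 hq hK
  set O := orbD4 hq hK
  set W := grpD4 hq hK
  have hS := rulesD4 K
  have hM := glSys_HMul (rulesD4 K) hR
  let J0 : Fin twD4.nOrb := ⟨0, by decide⟩
  let J1 : Fin twD4.nOrb := ⟨1, by decide⟩
  have ep := twD4_ok.enum_posJ (T := T) (fun _ => rfl) rfl
  have en := twD4_ok.enum_negJ (T := T) (fun _ => rfl) rfl hR
  let C : AbClass T (O.posJ J1) :=
    { L := [18, 13, 12]
      a := 18
      enum := ep J1
      comm := d12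
      mem_a := ((ep J1).2 18).1 (show 18 ∈ [18, 13, 12] by simp)
      X := fun s => S.P [18, 13, 12] fun r => s ^ expD4 q r
      spec := fun g => by
        rw [show O.posJ J1 = (bif false then O.negJ J1 else O.posJ J1) from rfl, fixD4 hq hK J1 false g]
        refine exists_congr fun t => ?_
        simp [Sys.P, expD4, wordsD4, J1, S, glSys]
      coef := fun s => ⟨fun r => s ^ expD4 q r, rfl, by simp [expD4]⟩ }
  have hA : UClosed chevD4 len (htHom chevD4) (O.posJ J1) := O.posJ_closed hR J1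
  obtain ⟨v, hv⟩ := exists_units_powers K
  have hcardU : Nat.card Kˣ = q ^ 3 - 1 := by rw [Nat.card_units, Nat.card_eq_fintype_card, hK]
  have hq3 : 8 ≤ q ^ 3 := by nlinarith [Nat.pow_le_pow_left hq1 3]
  have hcop : (Nat.card Kˣ).Coprime (q ^ 2 + q - 1) := by
    rw [hcardU]
    obtain ⟨m, rfl⟩ : ∃ m, q = m + 2 := ⟨q - 2, by omega⟩
    have hX : (m + 2) ^ 3 - 1 = (m + 1) * (((m + 2) ^ 2 + (m + 2) - 1) + 2) := by
      rw [show (m + 2) ^ 2 + (m + 2) = (m * m + 5 * m + 5) + 1 by ring, Nat.add_sub_cancel,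
        show (m + 2) ^ 3 = (m + 1) * (m * m + 5 * m + 5 + 2) + 1 by ring, Nat.add_sub_cancel]
    rw [hX, show (m + 2) ^ 2 + (m + 2) - 1 = (m * m + 5 * m + 5) by
      rw [show (m + 2) ^ 2 + (m + 2) = (m * m + 5 * m + 5) + 1 by ring, Nat.add_sub_cancel]]
    refine Nat.Coprime.mul_left ?_ ?_
    · rw [show m * m + 5 * m + 5 = 1 + (m + 4) * (m + 1) by ring, Nat.coprime_add_mul_right_right]
      exact Nat.coprime_one_right _
    · rw [Nat.coprime_self_add_left]
      have : Odd (m * m + 5 * m + 5) := by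
        rcases Nat.even_or_odd m with ⟨k, rfl⟩ | ⟨k, rfl⟩
        · exact ⟨2 * k * k + 5 * k + 2, by ring⟩
        · exact ⟨2 * k * k + 7 * k + 5, by ring⟩
      exact Nat.coprime_two_left.2 this
  set c := mkD4 v 1 (v ^ q) ((v ^ q) ^ q) with hcdef
  have hc : c ∈ fixTorusD4 K q := (mem_mkD4_iff _).2 ⟨units_pow_cube hK _, one_pow q, rfl, rfl⟩
  set h := S.tau hS hR hM c
  have hh : h ∈ S.Hbar := tau_mem_Hbar hS hR hM c
  have hhT : h ∈ W.Tw := tau_mem_D4 hq hK hR hc
  set n := (([J0, J1]).map (W.nJ hS hR)).prod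
  obtain ⟨hn, hw, hnT⟩ := W.prod_nJ hS hR [J0, J1]
  have hword : O.word [J0, J1] = coxD4 := rfl
  rw [hword] at hw
  have hchar : ∀ s, (List.range 4).map (fun j => chevD4.cartan j s) =
      [chevD4.cartan 0 s, chevD4.cartan 1 s, chevD4.cartan 2 s, chevD4.cartan 3 s] := fun s => rfl
  rw [hchar] at d2 d2'
  simp only [List.cons.injEq, and_true] at d2 d2'
  have e18 : (∏ j : Fin chevD4.rank, c j ^ chevD4.cartan j 18) = v ^ 2 := by
    show (∏ j : Fin 4, c j ^ chevD4.cartan j 18) = _
    simp [Fin.prod_univ_four, hcdef, mkD4, d2, zpow_ofNat]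
  have e4 : (∏ j : Fin chevD4.rank, c j ^ chevD4.cartan j 4) = v ^ (q ^ 2 + q - 1) := by
    show (∏ j : Fin 4, c j ^ chevD4.cartan j 4) = _
    simp [Fin.prod_univ_four, hcdef, mkD4, d2']
    have : 1 ≤ q ^ 2 + q := by nlinarith
    rw [mul_assoc, inv_mul_eq_iff_eq_mul, ← pow_mul, ← pow_add, ← pow_succ', Nat.sub_add_cancel this]
    congr 1
    ring
  refine two_gen_of_le _ hhT (show n * C.X 1 ∈ twistedD4 K q from
    mul_mem hnT (W.fixPos_mem J1 ((C.spec _).2 ⟨1, rfl⟩))) fun M hhM haM => ?_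
  have hcard1 : 1 < Nat.card Kˣ := by omega
  obtain ⟨hnM, hA1⟩ := C.core_mem W hS hR hM hA hh hhT hn hnT hw
    (lam := ((v ^ 2 : Kˣ) : K)) (μ := ((v ^ (q ^ 2 + q - 1) : Kˣ) : K))
    (by rw [tau_conj hS hR hM c d11, e18, mul_one])
    (by
      rw [Ne, Units.val_eq_one]
      intro h2
      have h3 : orderOf v ≤ 2 := orderOf_le_of_pow_eq_one (by norm_num) h2
      have h4 : orderOf v = Nat.card Kˣ := orderOf_eq_card_of_forall_mem_zpowers fun z => by
        obtain ⟨i, hi⟩ := Submonoid.mem_powers_iff _ _ |>.1 (hv z)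
        exact ⟨i, by simpa using hi⟩
      omega)
    (fun t => by
      rw [show act chevD4 coxD4 C.a = 4 from d1, tau_conj hS hR hM c d10, e4])
    (by
      rw [Ne, Units.val_eq_one]
      exact ne_one_of_gen hcard1 (exists_pow_coprime hv hcop))
    (units_pow_surj (exists_pow_coprime hv hcop))
    hhM haM
  have hwM : HasWord W M coxD4 := ⟨_, hnM, hnT, hw⟩
  have h9 : Good T M ({9} : Set ℕ) :=
    good_root hR W C hA hA1 (q := q) (expD4 q)
      (fun l hl r hr => by
        have : (l ^ q) ^ q = l := by rw [hl, hl]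
        simp only [expD4]
        split_ifs
        · exact hl
        · rw [pow_two, pow_mul]; exact this
        · exact pow_one l)
      (fun s => rfl)
      (fun r hr => by
        rw [hK]
        simp only [expD4]
        have h2 : q ^ 1 < q ^ 3 := Nat.pow_lt_pow_right hq1 (by norm_num)
        have h3 : q ^ 2 < q ^ 3 := Nat.pow_lt_pow_right hq1 (by norm_num)
        rw [pow_one] at h2
        split_ifs <;> omega)
      (fun r hr r' hr' e => by
        simp only [C, List.mem_cons, List.not_mem_nil, or_false] at hr hr'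
        rcases hr with rfl | rfl | rfl <;> rcases hr' with rfl | rfl | rfl <;> simp [expD4] at e ⊢ <;> nlinarith)
      hwM d9 d3 (a0 := 18) (b0 := 4) (by simp [C]) d4 (by rw [d5]; norm_num) d8 (ε := 1)
      (fun t => by rw [twistD4_f hq hK (by simp), one_mul])
      (Or.inr (by
        have : ({9} : Set ℕ) = O.negJ J0 := Set.ext fun r => by
          rw [Set.mem_singleton_iff, ← (en J0).2 r]
          simp [J0, TwData.posList, twD4, negD4.1]
        rw [this]
        exact O.negJ_closed hR J0))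
  have hstart : ∀ L ∈ ([[18, 13, 12], [9]] : List (List ℕ)),
      (∀ r ∈ L, r < chevD4.nroots) ∧ Good T M {r | r ∈ L} := by
    intro L hL
    simp only [List.mem_cons, List.not_mem_nil, or_false] at hL
    rcases hL with rfl | rfl
    · exact ⟨fun r hr => hA.lt r (((ep J1).2 r).1 hr),
        (show Good T M (O.posJ J1) from hA1).mono fun r hr => ((ep J1).2 r).1 hr⟩
    · refine ⟨fun r hr => ?_, h9.mono fun r hr => ?_⟩
      · rw [List.mem_singleton] at hr; omega
      · exact List.mem_singleton.1 hr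
  have hreach : ∀ L, reachCls chevD4 [coxD4] 5 [[18, 13, 12], [9]] L = true → Good T M {r | r ∈ L} :=
    fun L hL => good_of_reach hR (W := W) (by simpa using hwM) 5 hstart hL
  refine le_of_good W fun J => ?_
  have hp0 : Good T M (O.posJ J0) := (hreach _ d7).mono fun r hr => ((ep J0).2 r).2 hr
  have hn0 : Good T M (O.negJ J0) := h9.mono fun r hr => by
    have := ((en J0).2 r).2 hr
    simpa [J0, TwData.posList, twD4, negD4.1] using this
  have hn1 : Good T M (O.negJ J1) := (hreach _ d6).mono fun r hr => by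
    have := ((en J1).2 r).2 hr
    simpa [J1, TwData.posList, twD4, negD4.2.1, negD4.2.2.1, negD4.2.2.2.1] using this
  fin_cases J
  · exact ⟨hp0, hn0⟩
  · exact ⟨hA1, hn1⟩

end Cfsg.Agent.TwoGenTw
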