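import Cfsg.Agent.TwoGenTw.Base
import Cfsg.Agent.ChevTw.TwF4Thms

/-! ²F₄(q) is two-generated (owner: helper17). -/

set_option autoImplicit false

namespace Cfsg.Agent.TwoGenTw

open Cfsg.Lie Cfsg.Agent.ChevGrp Cfsg.Agent.ChevTw
open scoped commutatorElement

/-- Commutator terms vanishing in characteristic two. -/
theorem commute_char2 {D : ChevalleyDatum} {F : Type*} [Field F] [CharP F 2] {G : Type*} [Group G]
    (S : Sys D F G) {r s : ℕ} (hr : r < D.nroots) (hs : s < D.nroots) (h1 : s ≠ r) (h2 : s ≠ D.neg r)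
    (h : ∀ c ∈ D.commTerms r s, c.1 < D.nroots ∧ c.2.1 % 2 = 0) (t u : F) : Commute (S.x r t) (S.x s u) := by
  have e := S.comm r hr s hs h1 h2 t u
  have h0 : ((D.commWord F r s t u).map fun p => S.x p.1 p.2).prod = 1 := by
    refine List.prod_eq_one fun g hg => ?_
    obtain ⟨p, hp, rfl⟩ := List.mem_map.1 hg
    rw [ChevalleyDatum.commWord, List.mem_map] at hp
    obtain ⟨c, hc, rfl⟩ := hp
    obtain ⟨h3, h4⟩ := h c hc
    have : ((c.2.1 : ℤ) : F) = 0 := (CharP.intCast_eq_zero_iff F 2 _).2 (by omega)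
    simp [this, S.x_zero h3]
  rw [h0, mul_one] at e
  exact e.symm

/-- The Coxeter word of ²F₄. -/
def coxF4 : List (Fin chevF4.rank) :=
  ([0, 3, 1, 2, 1, 2] : List ℕ).filterMap fun i => if h : i < chevF4.rank then some ⟨i, h⟩ else none

/-- Two roots whose root groups commute in characteristic two. -/
def Comm2 (a b : ℕ) : Prop :=
  b ≠ a ∧ b ≠ chevF4.neg a ∧ a < chevF4.nroots ∧ b < chevF4.nroots ∧
    ∀ c ∈ chevF4.commTerms a b, c.1 < chevF4.nroots ∧ c.2.1 % 2 = 0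

instance (a b : ℕ) : Decidable (Comm2 a b) := by unfold Comm2; infer_instance

theorem dataF4 :
    ([27, 25, 28, 30].map (act chevF4 coxF4) = [13, 21, 11, 5]) ∧
    ((List.range 4).map (fun j => chevF4.cartan j 25) = [0, -2, 2, -1]) ∧
    ((List.range 4).map (fun j => chevF4.cartan j 21) = [0, 2, -1, -1]) ∧
    (∀ ab ∈ [(27, 28), (27, 30), (25, 28), (25, 30), (28, 30)], Comm2 ab.1 ab.2) ∧
    ((∀ ab ∈ [(27, 21), (27, 11), (27, 5), (25, 13), (25, 11), (25, 5), (14, 23), (14, 27), (14, 25), (14, 13),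
      (14, 21), (23, 27), (23, 25), (23, 13), (23, 21), (14, 28), (14, 30), (14, 11), (14, 5), (23, 28), (23, 30), (23, 11),
      (23, 5), (28, 11), (28, 5), (30, 11), (30, 5), (28, 13), (30, 13), (28, 21), (30, 21)], Comm2 ab.1 ab.2) ∧
      chevF4.commTerms 27 13 = [(14, -1, 1, 1)] ∧ chevF4.commTerms 25 21 = [(23, 1, 1, 1)] ∧
      (13 ≠ 27 ∧ 13 ≠ chevF4.neg 27 ∧ 21 ≠ 25 ∧ 21 ≠ chevF4.neg 25) ∧
      (∀ r ∈ [27, 25, 28, 30, 13, 21, 11, 5, 14, 23], r < chevF4.nroots)) ∧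
    (∀ L ∈ ([[20, 22, 19, 17], [33, 24]] : List (List ℕ)),
      reachCls chevF4 [coxF4] 4 [[27, 25, 28, 30], [14, 23]] L = true) ∧
    chevF4.neg 33 = 14 ∧ chevF4.neg 24 = 23 ∧ chevF4.neg 27 = 20 ∧ chevF4.neg 25 = 22 ∧
      chevF4.neg 28 = 19 ∧ chevF4.neg 30 = 17 := by
  decide +kernel

variable {K : Type*} [Field K] [Fintype K] {m : ℕ}

/-- An element of the Suzuki class. -/
noncomputable def eF4 (a b c d : K) : GL chevF4.Idx K :=
  (glSys (rulesF4 K)).x 27 a * (glSys (rulesF4 K)).x 25 b *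
    ((glSys (rulesF4 K)).x 28 c * (glSys (rulesF4 K)).x 30 d)

theorem eF4_mul [CharP K 2] (a b c d a' b' c' d' : K) :
    eF4 a b c d * eF4 a' b' c' d' = eF4 (a + a') (b + b') (c + c' + a' * b) (d + d' + a' ^ 2 * b) := by
  obtain ⟨-, -, -, hc, ⟨-, -, -, -, hlt⟩, -⟩ := dataF4
  set S := glSys (rulesF4 K)
  have cm : ∀ {r s : ℕ}, (r, s) ∈ [(27, 28), (27, 30), (25, 28), (25, 30), (28, 30)] → ∀ t u : K,
      Commute (S.x r t) (S.x s u) := fun h t u =>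
    commute_char2 S (hc _ h).2.2.1 (hc _ h).2.2.2.1 (hc _ h).1 (hc _ h).2.1 (hc _ h).2.2.2.2 t u
  have e1 := x_commF4 (K := K) (a := 27) (b := 25) (c := 28) (d := 30) (by simp) a' b
  have k1 : Commute (S.x 28 c * S.x 30 d) (S.x 27 a') :=
    ((cm (by simp) a' c).symm.mul_left (cm (by simp) a' d).symm)
  have k2 : Commute (S.x 28 (a' * b) * S.x 30 (a' ^ 2 * b) * (S.x 28 c * S.x 30 d)) (S.x 25 b') :=
    (((cm (by simp) b' _).symm.mul_left (cm (by simp) b' _).symm).mul_left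
      ((cm (by simp) b' c).symm.mul_left (cm (by simp) b' d).symm))
  have k3 : Commute (S.x 30 (a' ^ 2 * b)) (S.x 28 c) := (cm (by simp) c _).symm
  have k4 : Commute (S.x 30 (a' ^ 2 * b + d)) (S.x 28 c') := (cm (by simp) c' _).symm
  simp only [eF4]
  calc S.x 27 a * S.x 25 b * (S.x 28 c * S.x 30 d) * (S.x 27 a' * S.x 25 b' * (S.x 28 c' * S.x 30 d'))
      = S.x 27 a * S.x 25 b * ((S.x 28 c * S.x 30 d) * S.x 27 a') * S.x 25 b' * (S.x 28 c' * S.x 30 d') := by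
        simp only [mul_assoc]
    _ = S.x 27 a * (S.x 25 b * S.x 27 a') * (S.x 28 c * S.x 30 d) * S.x 25 b' * (S.x 28 c' * S.x 30 d') := by
        rw [k1.eq]; simp only [mul_assoc]
    _ = S.x 27 a * S.x 27 a' * S.x 25 b * ((S.x 28 (a' * b) * S.x 30 (a' ^ 2 * b) * (S.x 28 c * S.x 30 d)) *
          S.x 25 b') * (S.x 28 c' * S.x 30 d') := by
        rw [e1]; simp only [mul_assoc]; rfl
    _ = S.x 27 a * S.x 27 a' * (S.x 25 b * S.x 25 b') *
          (S.x 28 (a' * b) * (S.x 30 (a' ^ 2 * b) * S.x 28 c) * S.x 30 d * (S.x 28 c' * S.x 30 d')) := by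
        rw [k2.eq]; simp only [mul_assoc]
    _ = S.x 27 a * S.x 27 a' * (S.x 25 b * S.x 25 b') * (S.x 28 (a' * b) * S.x 28 c *
          ((S.x 30 (a' ^ 2 * b) * S.x 30 d) * S.x 28 c') * S.x 30 d') := by
        rw [k3.eq]; simp only [mul_assoc]
    _ = _ := by
        rw [S.x_add 27 (hlt 27 (by simp)), S.x_add 25 (hlt 25 (by simp)), S.x_add 28 (hlt 28 (by simp)),
          S.x_add 30 (hlt 30 (by simp)), k4.eq, ← mul_assoc (S.x 28 (a' * b + c)),
          S.x_add 28 (hlt 28 (by simp)), mul_assoc (S.x 28 _), S.x_add 30 (hlt 30 (by simp))]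
        congr 3 <;> ring

/-- An element of the Suzuki class by its two parameters. -/
noncomputable def eSuz (m : ℕ) (t u : K) : GL chevF4.Idx K :=
  eF4 (t ^ 2 ^ m) t (t ^ (2 ^ m + 1) + u) (u ^ (2 * 2 ^ m))

/-- The first parameter of an element of the Suzuki class. -/
def Tc (m : ℕ) (g : GL chevF4.Idx K) (t : K) : Prop := ∃ u, g = eSuz m t u

section

variable (hK : Fintype.card K = 2 ^ (2 * m + 1)) {len : ℕ → ℕ}

include hK in
theorem eF4_unique (hR : RootTable chevF4 len) {a b c d a' b' c' d' : K}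
    (e : eF4 a b c d = eF4 a' b' c' d') : a = a' ∧ b = b' ∧ c = c' ∧ d = d' := by
  have hzip : ∀ a b c d : K, eF4 a b c d =
      (List.zipWith (glSys (rulesF4 K)).x [27, 25, 28, 30] [a, b, c, d]).prod := fun a b c d => by
    simp [eF4, mul_assoc]
  rw [hzip, hzip] at e
  have := zip_unique hR ((orbF4 hK).posJ_closed hR ⟨1, by decide⟩)
    (twF4_ok.enum_posJ (T := twistF4 hK) (fun _ => rfl) rfl ⟨1, by decide⟩)
    (v := [a, b, c, d]) (v' := [a', b', c', d']) rfl rfl e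
  simpa using this

theorem fix_suz_iff (g : GL chevF4.Idx K) :
    g ∈ fixUS (twistF4 hK) ((orbF4 hK).posJ ⟨1, by decide⟩) ↔ ∃ t u : K, g = eSuz m t u := by
  rw [show (orbF4 hK).posJ ⟨1, by decide⟩ = (bif false then (orbF4 hK).negJ ⟨1, by decide⟩ else
    (orbF4 hK).posJ ⟨1, by decide⟩) from rfl, fixF4 hK ⟨1, by decide⟩ false g]
  refine exists_congr fun t => exists_congr fun u => ?_
  simp [eSuz, eF4, wordsF4, b2ClassWord, glSys, f4a, f4b, f4ab, f4aab, mul_assoc]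

theorem suz_mem_Tw (t u : K) : eSuz m t u ∈ (grpF4 hK).Tw :=
  (grpF4 hK).fixPos_mem ⟨1, by decide⟩ ((fix_suz_iff hK _).2 ⟨t, u, rfl⟩)

theorem suz_fix {g : GL chevF4.Idx K} {t : K} (h : Tc m g t) :
    g ∈ fixUS (twistF4 hK) ((orbF4 hK).posJ ⟨1, by decide⟩) := by
  obtain ⟨u, rfl⟩ := h
  exact (fix_suz_iff hK _).2 ⟨t, u, rfl⟩

include hK in
theorem suz_mul_mem {g g' : GL chevF4.Idx K}
    (h : g ∈ fixUS (twistF4 hK) ((orbF4 hK).posJ ⟨1, by decide⟩))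
    (h' : g' ∈ fixUS (twistF4 hK) ((orbF4 hK).posJ ⟨1, by decide⟩)) :
    g * g' ∈ fixUS (twistF4 hK) ((orbF4 hK).posJ ⟨1, by decide⟩) := by
  have hG : ∀ {x}, x ∈ (glSys (rulesF4 K)).US ((orbF4 hK).posJ ⟨1, by decide⟩) → x ∈ (glSys (rulesF4 K)).Gbar :=
    fun hx => Twist.US_le_Gbar (fun r hr => (orbF4 hK).posJ_lt r hr) hx
  exact ⟨mul_mem h.1 h'.1, by rw [(twistF4 hK).sig_mul _ (hG h.1) _ (hG h'.1), h.2, h'.2]⟩

include hK in
theorem suz_inv_mem {g : GL chevF4.Idx K}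
    (h : g ∈ fixUS (twistF4 hK) ((orbF4 hK).posJ ⟨1, by decide⟩)) :
    g⁻¹ ∈ fixUS (twistF4 hK) ((orbF4 hK).posJ ⟨1, by decide⟩) :=
  ⟨inv_mem h.1, by rw [(twistF4 hK).sig_inv (Twist.US_le_Gbar (fun r hr => (orbF4 hK).posJ_lt r hr) h.1), h.2]⟩

include hK in
theorem suz_unique (hR : RootTable chevF4 len) {g : GL chevF4.Idx K} {t t' : K} (h : Tc m g t) (h' : Tc m g t') :
    t = t' := by
  obtain ⟨u, hu⟩ := h
  obtain ⟨u', hu'⟩ := h'
  exact (eF4_unique hK hR (hu.symm.trans hu')).2.1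

include hK in
theorem suz_mul (hR : RootTable chevF4 len) {g g' : GL chevF4.Idx K} {t t' : K} (h : Tc m g t) (h' : Tc m g' t') :
    Tc m (g * g') (t + t') := by
  haveI := charTwo_of_card hK
  obtain ⟨s, u, hs⟩ := (fix_suz_iff hK _).1 (suz_mul_mem hK (suz_fix hK h) (suz_fix hK h'))
  obtain ⟨u1, rfl⟩ := h
  obtain ⟨u2, rfl⟩ := h'
  refine ⟨u, ?_⟩
  have e := hs
  simp only [eSuz, eF4_mul] at e
  rwa [← (eF4_unique hK hR e).2.1] at hs

theorem suz_one (m : ℕ) : Tc m (1 : GL chevF4.Idx K) 0 := by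
  obtain ⟨-, -, -, -, ⟨-, -, -, -, hlt⟩, -⟩ := dataF4
  exact ⟨0, by simp [eSuz, eF4, (glSys (rulesF4 K)).x_zero (hlt 27 (by simp)),
    (glSys (rulesF4 K)).x_zero (hlt 25 (by simp)), (glSys (rulesF4 K)).x_zero (hlt 28 (by simp)),
    (glSys (rulesF4 K)).x_zero (hlt 30 (by simp))]⟩

include hK in
theorem suz_inv (hR : RootTable chevF4 len) {g : GL chevF4.Idx K} {t : K} (h : Tc m g t) : Tc m g⁻¹ t := by
  haveI := charTwo_of_card hK
  obtain ⟨s, u, hs⟩ := (fix_suz_iff hK _).1 (suz_inv_mem hK (suz_fix hK h))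
  have h2 := suz_unique hK hR (suz_mul hK hR h ⟨u, hs⟩) (by rw [mul_inv_cancel]; exact suz_one m)
  rw [show s = t by rw [← CharTwo.neg_eq t]; exact eq_neg_of_add_eq_zero_right h2] at hs
  exact ⟨u, hs⟩

include hK in
theorem suz_conj (hR : RootTable chevF4 len) {k : GL chevF4.Idx K} (hk : k ∈ (glSys (rulesF4 K)).Hbar)
    (hkT : k ∈ (grpF4 hK).Tw) {χ : K}
    (hχ : k * (glSys (rulesF4 K)).x 25 1 * k⁻¹ = (glSys (rulesF4 K)).x 25 χ) {g : GL chevF4.Idx K} {t : K}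
    (h : Tc m g t) : Tc m (k * g * k⁻¹) (χ * t) := by
  obtain ⟨-, -, -, -, ⟨-, -, -, -, hlt⟩, -⟩ := dataF4
  set S := glSys (rulesF4 K)
  obtain ⟨c0, -, hc0⟩ := S.conjP_Hbar (rulesF4 K) hR hk
  simp only [act_nil] at hc0
  have he : ∀ a b c d : K, k * eF4 a b c d * k⁻¹ = eF4 (c0 27 * a) (c0 25 * b) (c0 28 * c) (c0 30 * d) := by
    intro a b c d
    simp only [eF4]
    rw [← hc0 27 (hlt 27 (by simp)) a, ← hc0 25 (hlt 25 (by simp)) b, ← hc0 28 (hlt 28 (by simp)) c,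
      ← hc0 30 (hlt 30 (by simp)) d]
    simp [mul_assoc, S]
  have hc25 : c0 25 = χ := by
    have e := hc0 25 (hlt 25 (by simp)) 1
    rw [hχ, mul_one] at e
    have h0 : ∀ v : K, eF4 (0 : K) v 0 0 = S.x 25 v := fun v => by
      simp [eF4, S.x_zero (hlt 27 (by simp)), S.x_zero (hlt 28 (by simp)), S.x_zero (hlt 30 (by simp)), S]
    rw [← h0, ← h0] at e
    exact (eF4_unique hK hR e).2.1.symm
  obtain ⟨s, u, hs⟩ := (fix_suz_iff hK _).1 ((grpF4 hK).conj_neg_fix hkT (S.conjP_Hbar (rulesF4 K) hR hk)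
    (fun r hr => (orbF4 hK).posJ_lt r hr) (fun r hr => by rwa [act_nil]) (suz_fix hK h))
  obtain ⟨u1, rfl⟩ := h
  refine ⟨u, ?_⟩
  have e := hs
  simp only [eSuz, he] at e
  rw [← (eF4_unique hK hR e).2.1, hc25] at hs
  exact hs

include hK in
theorem suz_fill (hm : 1 ≤ m) (hR : RootTable chevF4 len) {h h' : GL chevF4.Idx K}
    (hh : h ∈ (glSys (rulesF4 K)).Hbar) (hhT : h ∈ (grpF4 hK).Tw)
    (hh'H : h' ∈ (glSys (rulesF4 K)).Hbar) (hh'T : h' ∈ (grpF4 hK).Tw) {lam μ : K}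
    (hconj25 : h * (glSys (rulesF4 K)).x 25 1 * h⁻¹ = (glSys (rulesF4 K)).x 25 lam)
    (hconj' : h' * (glSys (rulesF4 K)).x 25 1 * h'⁻¹ = (glSys (rulesF4 K)).x 25 μ)
    (hlam1 : lam ≠ 1) (hμ1 : μ ≠ 1) (hμgen : ∀ z : K, z ≠ 0 → ∃ k : ℕ, μ ^ k = z)
    {P : Subgroup (GL chevF4.Idx K)} (hP1 : h' ∈ P) (hP2 : ⁅⁅eSuz m (1 : K) 0, h⁆, h'⁆ ∈ P) :
    fixUS (twistF4 hK) ((orbF4 hK).posJ ⟨1, by decide⟩) ⊆ P := by
  haveI := charTwo_of_card hK
  set S := glSys (rulesF4 K)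
  set W := grpF4 hK
  set θ : ℕ := 2 ^ m with hθ
  have hθ0 : θ ≠ 0 := pow_ne_zero _ two_ne_zero
  have hadd : ∀ x y : K, (x + y) ^ θ = x ^ θ + y ^ θ := fun x y => add_pow_char_pow x y 2 m
  obtain ⟨v, hv⟩ := exists_units_powers K
  have hcardU : Nat.card Kˣ = 2 ^ (2 * m + 1) - 1 := by rw [Nat.card_units, Nat.card_eq_fintype_card, hK]
  have hordv : orderOf v = 2 ^ (2 * m + 1) - 1 := by
    rw [← hcardU]
    exact orderOf_eq_card_of_forall_mem_zpowers fun z => by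
      obtain ⟨i, hi⟩ := Submonoid.mem_powers_iff _ _ |>.1 (hv z)
      exact ⟨i, by simpa using hi⟩
  have h2m : 2 ≤ 2 ^ m := le_self_pow₀ (by norm_num) (by omega)
  have h2sq : 2 ^ (2 * m + 1) = 2 * (2 ^ m * 2 ^ m) := by rw [pow_succ, two_mul, pow_add]; ring
  have hbig : 2 ^ m * 2 + 1 < 2 ^ (2 * m + 1) := by rw [h2sq]; nlinarith
  have hcopθ : (Nat.card Kˣ).Coprime (θ + 1) := by
    have h2 : (Nat.card Kˣ).Coprime (2 ^ (2 * m) - 1) := by
      rw [hcardU, Nat.coprime_iff_gcd_eq_one, Nat.pow_sub_one_gcd_pow_sub_one]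
      have : Nat.gcd (2 * m + 1) (2 * m) = 1 := by
        rw [add_comm, Nat.gcd_add_self_left]; simp
      rw [this]; rfl
    refine h2.coprime_dvd_right ⟨θ - 1, ?_⟩
    have := Nat.sq_sub_sq (2 ^ m) 1
    rw [← pow_mul, one_pow, mul_comm m 2] at this
    exact this
  have hTcom : ∀ {k : GL chevF4.Idx K}, k ∈ S.Hbar → k ∈ W.Tw → ∀ {χ : K},
      k * S.x 25 1 * k⁻¹ = S.x 25 χ → ∀ {g t}, Tc m g t → Tc m ⁅g, k⁆ (t + χ * t) := by
    intro k hk hkT χ hχ g t hg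
    rw [commutatorElement_def, show g * k * g⁻¹ * k⁻¹ = g * (k * g⁻¹ * k⁻¹) by group]
    exact suz_mul hK hR hg (suz_conj hK hR hk hkT hχ (suz_inv hK hR hg))
  have h0 := hTcom hh'H hh'T hconj' (hTcom hh hhT hconj25 (show Tc m (eSuz m (1 : K) 0) 1 from ⟨0, rfl⟩))
  set z := 1 + lam * 1 + μ * (1 + lam * 1)
  have hz0 : z ≠ 0 := by
    rw [show z = (1 + μ) * (1 + lam) by ring]
    refine mul_ne_zero ?_ ?_ <;> intro h
    · exact hμ1 (by rw [← CharTwo.neg_eq μ]; exact (eq_neg_of_add_eq_zero_left h).symm)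
    · exact hlam1 (by rw [← CharTwo.neg_eq lam]; exact (eq_neg_of_add_eq_zero_left h).symm)
  have hk : ∀ k : ℕ, ∃ g ∈ P, Tc m g (μ ^ k * z) := by
    intro k
    induction k with
    | zero => exact ⟨_, hP2, by simpa using h0⟩
    | succ k ih =>
      obtain ⟨g, hg, hgt⟩ := ih
      exact ⟨_, mul_mem (mul_mem hP1 hg) (inv_mem hP1), by
        rw [pow_succ', mul_assoc μ]; exact suz_conj hK hR hh'H hh'T hconj' hgt⟩
  have hall : ∀ t : K, ∃ g ∈ P, Tc m g t := by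
    intro t
    by_cases ht : t = 0
    · exact ⟨1, one_mem P, by rw [ht]; exact (suz_one m)⟩
    obtain ⟨k, hk'⟩ := hμgen (t / z) (div_ne_zero ht hz0)
    obtain ⟨g, hg, hgt⟩ := hk k
    exact ⟨g, hg, by rwa [hk', div_mul_cancel₀ _ hz0] at hgt⟩
  have hcen : ∀ t s : K, eSuz m 0 (s ^ θ * t + t ^ θ * s) ∈ P := by
    intro t s
    obtain ⟨g1, hg1, ht⟩ := hall t
    obtain ⟨g2, hg2, hs⟩ := hall s
    have hmem := mul_mem (inv_mem (mul_mem hg2 hg1)) (mul_mem hg1 hg2)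
    have h3 := suz_mul hK hR (suz_inv hK hR (suz_mul hK hR hs ht)) (suz_mul hK hR ht hs)
    rw [add_comm t s, CharTwo.add_self_eq_zero] at h3
    obtain ⟨u, hu⟩ := h3
    obtain ⟨u1, e1⟩ := ht
    obtain ⟨u2, e2⟩ := hs
    have : g1 * g2 = g2 * g1 * eSuz m 0 u := by rw [← hu]; group
    rw [e1, e2] at this
    simp only [eSuz, eF4_mul, zero_pow hθ0, zero_pow (Nat.succ_ne_zero θ)] at this
    obtain ⟨-, -, h28, -⟩ := eF4_unique hK hR this
    have hu' : u = s ^ θ * t + t ^ θ * s := by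
      have h2 : (2 : K) = 0 := CharTwo.two_eq_zero
      linear_combination -h28 + (-(t ^ θ * s)) * h2
    rw [hu, hu'] at hmem
    exact hmem
  have hcenter : ∀ z' : K, eSuz m 0 z' ∈ P := by
    intro z'
    set D := ((v : K)) ^ θ + v
    have hD : D ≠ 0 := by
      intro h
      have h1 : (v : K) ^ θ = v := by
        rw [eq_neg_of_add_eq_zero_left h, CharTwo.neg_eq]
      have h2 : v ^ (θ - 1) = 1 := by
        refine mul_right_cancel (b := v) ?_
        rw [one_mul, ← pow_succ, Nat.sub_add_cancel (by omega : 1 ≤ θ)]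
        exact Units.ext (by simpa using h1)
      have h3 : orderOf v ≤ θ - 1 := orderOf_le_of_pow_eq_one (by simp only [θ]; omega) h2
      simp only [θ] at h3
      omega
    by_cases hz : z' = 0
    · have := hcen 0 0
      simpa [hz] using this
    obtain ⟨i, hi⟩ := units_pow_surj (exists_pow_coprime hv hcopθ) (z' / D) (div_ne_zero hz hD)
    have := hcen ((v : K) ^ i * v) ((v : K) ^ i)
    rwa [show ((v : K) ^ i) ^ θ * ((v : K) ^ i * v) + ((v : K) ^ i * v) ^ θ * (v : K) ^ i = z' by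
      rw [mul_pow, show ((v : K) ^ i) ^ θ * ((v : K) ^ i * v) + ((v : K) ^ i) ^ θ * (v : K) ^ θ * (v : K) ^ i =
        ((v : K) ^ i) ^ (θ + 1) * D by ring, ← pow_mul, mul_comm i, pow_mul,
        ← Units.val_pow_eq_pow_val v, hi, div_mul_cancel₀ _ hD]] at this
  intro x hx
  obtain ⟨t, u, rfl⟩ := (fix_suz_iff hK _).1 hx
  obtain ⟨g, hg, w, rfl⟩ := hall t
  have hmem := mul_mem hg (hcenter (u + w))
  have : eSuz m t w * eSuz m 0 (u + w) = eSuz m t u := by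
    have h2 : (2 : K) = 0 := CharTwo.two_eq_zero
    simp only [eSuz, eF4_mul, zero_pow hθ0, zero_pow (Nat.succ_ne_zero θ)]
    congr 1
    · ring
    · ring
    · linear_combination w * h2
    · rw [pow_mul, pow_mul, pow_mul, add_sq, hadd, hadd]
      simp only [CharTwo.two_eq_zero]
      linear_combination (w ^ 2) ^ θ * (CharTwo.two_eq_zero : (2 : K) = 0)
  rwa [this] at hmem

include hK in
theorem neg_pair_good (hR : RootTable chevF4 len) {n : GL chevF4.Idx K} (hnT : n ∈ (grpF4 hK).Tw)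
    (hw : (glSys (rulesF4 K)).ConjP n coxF4) {M : Subgroup (GL chevF4.Idx K)} (hnM : n ∈ M)
    (hA1' : Good (twistF4 hK) M ((orbF4 hK).posJ ⟨1, by decide⟩)) :
    Good (twistF4 hK) M ((orbF4 hK).negJ ⟨0, by decide⟩) := by
  haveI := charTwo_of_card hK
  obtain ⟨d1, -, -, -, ⟨d3, d4, d5, ⟨d6, d7, d8, d9⟩, hlt⟩, -, n33, n24, -⟩ := dataF4
  set S := glSys (rulesF4 K)
  set T := twistF4 hK
  set O := orbF4 hK
  set W := grpF4 hK
  let J0 : Fin twF4.nOrb := ⟨0, by decide⟩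
  have en := twF4_ok.enum_negJ (T := T) (fun _ => rfl) rfl hR
  set θ : ℕ := 2 ^ m
  have hθ0 : θ ≠ 0 := pow_ne_zero _ two_ne_zero
  obtain ⟨cn, hcn, hnc⟩ := hw
  have hact : act chevF4 coxF4 27 = 13 ∧ act chevF4 coxF4 25 = 21 ∧ act chevF4 coxF4 28 = 11 ∧
      act chevF4 coxF4 30 = 5 := by simpa using d1
  set k1 := cn 27
  set k2 := cn 25
  have hk2 : k2 ≠ 0 := right_ne_zero_of_mul_eq_one (hcn 25 (hlt 25 (by simp)))
  set gB := n * eSuz m 1 0 * n⁻¹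
  have hgB : gB = S.x 13 k1 * S.x 21 k2 * (S.x 11 (cn 28 * 1) * S.x 5 (cn 30 * 0)) := by
    obtain ⟨a1, a2, a3, a4⟩ := hact
    have e27 := hnc 27 (hlt 27 (by simp)) 1
    have e25 := hnc 25 (hlt 25 (by simp)) 1
    have e28 := hnc 28 (hlt 28 (by simp)) 1
    have e30 := hnc 30 (hlt 30 (by simp)) 0
    rw [a1, mul_one] at e27
    rw [a2, mul_one] at e25
    rw [a3] at e28
    rw [a4] at e30
    rw [← e27, ← e25, ← e28, ← e30]
    simp [gB, eSuz, eF4, hθ0, mul_assoc, S]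
  have cm : ∀ {r s : ℕ}, (r, s) ∈ [(27, 21), (27, 11), (27, 5), (25, 13), (25, 11), (25, 5), (14, 23), (14, 27),
      (14, 25), (14, 13), (14, 21), (23, 27), (23, 25), (23, 13), (23, 21), (14, 28), (14, 30), (14, 11),
      (14, 5), (23, 28), (23, 30), (23, 11), (23, 5), (28, 11), (28, 5), (30, 11), (30, 5), (28, 13), (30, 13),
      (28, 21), (30, 21)] → ∀ t u : K,
      Commute (S.x r t) (S.x s u) := fun h t u =>
    commute_char2 S (d3 _ h).2.2.1 (d3 _ h).2.2.2.1 (d3 _ h).1 (d3 _ h).2.1 (d3 _ h).2.2.2.2 t u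
  intro g hg
  obtain ⟨s, u0, hgs⟩ := (fixF4 hK J0 true g).1 hg
  set t := s / k2
  have key : ∀ gR gS : GL chevF4.Idx K, Commute gS (S.x 27 (t ^ θ)) → Commute gS (S.x 25 t) →
      Commute gS gR → Commute gR (S.x 13 k1) → Commute gR (S.x 21 k2) →
      Commute (S.x 14 (k1 * t ^ θ) * S.x 23 (k2 * t)) (gR * gS) →
      (S.x 27 (t ^ θ) * S.x 25 t * gR * (S.x 13 k1 * S.x 21 k2 * gS))⁻¹ *
        (S.x 13 k1 * S.x 21 k2 * gS * (S.x 27 (t ^ θ) * S.x 25 t * gR)) =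
        S.x 14 (k1 * t ^ θ) * S.x 23 (k2 * t) := by
    intro gR gS h1 h2 h3 h4 h5 f4
    have e1 : S.x 13 k1 * S.x 27 (t ^ θ) = S.x 27 (t ^ θ) * S.x 13 k1 * S.x 14 (k1 * t ^ θ) := by
      have e := S.comm 27 (hlt 27 (by simp)) 13 (hlt 13 (by simp)) d6 d7 (t ^ θ) k1
      simpa [ChevalleyDatum.commWord, d4, CharTwo.neg_eq, S, mul_comm k1] using e
    have e2 : S.x 21 k2 * S.x 25 t = S.x 25 t * S.x 21 k2 * S.x 23 (k2 * t) := by
      have e := S.comm 25 (hlt 25 (by simp)) 21 (hlt 21 (by simp)) d8 d9 t k2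
      simpa [ChevalleyDatum.commWord, d5, CharTwo.neg_eq, S, mul_comm k2] using e
    have f1 : Commute (S.x 27 (t ^ θ)) (S.x 21 k2) := cm (by simp) _ _
    have f2 : Commute (S.x 25 t) (S.x 13 k1) := cm (by simp) _ _
    have f3 : Commute (S.x 14 (k1 * t ^ θ)) (S.x 25 t * S.x 21 k2) :=
      (cm (by simp) _ _).mul_right (cm (by simp) _ _)
    set a1 := S.x 27 (t ^ θ)
    set a2 := S.x 25 t
    set b1 := S.x 13 k1
    set b2 := S.x 21 k2
    set e14 := S.x 14 (k1 * t ^ θ)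
    set e23 := S.x 23 (k2 * t)
    have m1 : b1 * b2 * gS * (a1 * a2 * gR) = a1 * a2 * b1 * b2 * (e14 * e23) * (gR * gS) := by
      calc b1 * b2 * gS * (a1 * a2 * gR) = b1 * b2 * (gS * a1) * a2 * gR := by simp only [mul_assoc]
        _ = b1 * (b2 * a1) * (gS * a2) * gR := by rw [h1.eq]; simp only [mul_assoc]
        _ = (b1 * a1) * (b2 * a2) * (gS * gR) := by rw [← f1.eq, h2.eq]; simp only [mul_assoc]
        _ = a1 * b1 * (e14 * (a2 * b2)) * e23 * (gS * gR) := by rw [e1, e2]; simp only [mul_assoc]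
        _ = a1 * (b1 * a2) * b2 * e14 * e23 * (gS * gR) := by rw [f3.eq]; simp only [mul_assoc]
        _ = _ := by rw [← f2.eq, h3.eq]; simp only [mul_assoc]
    have m2 : a1 * a2 * gR * (b1 * b2 * gS) = a1 * a2 * b1 * b2 * (gR * gS) := by
      calc a1 * a2 * gR * (b1 * b2 * gS) = a1 * a2 * (gR * b1) * b2 * gS := by simp only [mul_assoc]
        _ = a1 * a2 * b1 * (gR * b2) * gS := by rw [h4.eq]; simp only [mul_assoc]
        _ = _ := by rw [h5.eq]; simp only [mul_assoc]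
    rw [m1, m2, mul_assoc (a1 * a2 * b1 * b2) (e14 * e23), f4.eq]
    group
  set R := S.x 28 (t ^ (θ + 1) + 0) * S.x 30 ((0 : K) ^ (2 * θ)) with hR'
  set Q := S.x 11 (cn 28 * 1) * S.x 5 (cn 30 * 0) with hQ
  have key' := key R Q
    (((cm (by simp) _ _).mul_right (cm (by simp) _ _)).symm)
    (((cm (by simp) _ _).mul_right (cm (by simp) _ _)).symm)
    ((((cm (by simp) _ _).mul_left (cm (by simp) _ _)).mul_right
      ((cm (by simp) _ _).mul_left (cm (by simp) _ _))).symm)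
    ((cm (by simp) _ _).mul_left (cm (by simp) _ _))
    ((cm (by simp) _ _).mul_left (cm (by simp) _ _))
    ((((cm (by simp) _ _).mul_right (cm (by simp) _ _)).mul_right
        ((cm (by simp) _ _).mul_right (cm (by simp) _ _))).mul_left
      (((cm (by simp) _ _).mul_right (cm (by simp) _ _)).mul_right
        ((cm (by simp) _ _).mul_right (cm (by simp) _ _))))
  rw [← hgB] at key'
  set gA := eSuz m t 0
  rw [show S.x 27 (t ^ θ) * S.x 25 t * R = gA from rfl] at key'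
  have hgAT : gA ∈ W.Tw := suz_mem_Tw hK t 0
  have hgBT : gB ∈ W.Tw := mul_mem (mul_mem hnT (suz_mem_Tw hK 1 0)) (inv_mem hnT)
  have hcomT : S.x 14 (k1 * t ^ θ) * S.x 23 (k2 * t) ∈ W.Tw :=
    key' ▸ mul_mem (inv_mem (mul_mem hgAT hgBT)) (mul_mem hgBT hgAT)
  have hfixc : S.x 14 (k1 * t ^ θ) * S.x 23 (k2 * t) ∈ fixUS T (O.negJ J0) := by
    refine ⟨mul_mem (S.x_mem_US ?_ _) (S.x_mem_US ?_ _), W.fixed hcomT⟩ <;>
      exact ((en J0).2 _).1 (by simp [J0, TwData.posList, twF4, n33, n24])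
  obtain ⟨s', u', hs'⟩ := (fixF4 hK J0 true _).1 hfixc
  have huq := zip_unique (S := S) hR (O.negJ_closed hR J0) (en J0) (v := [k1 * t ^ θ, k2 * t]) (v' := [s' ^ θ, s'])
    rfl rfl (by
      refine Eq.trans ?_ (Eq.trans hs' ?_) <;>
        simp [J0, TwData.posList, twF4, n33, n24, wordsF4, f4PairWord, f4m1, f4m4, S, glSys, θ])
  simp only [List.cons.injEq, and_true] at huq
  have hss : s' = s := by rw [← huq.2]; exact mul_div_cancel₀ _ hk2
  have hgeq : g = S.x 14 (k1 * t ^ θ) * S.x 23 (k2 * t) := by rw [hgs, hs', hss]; rfl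
  rw [hgeq, ← key']
  have hgAM : gA ∈ M := hA1' _ ((fix_suz_iff hK _).2 ⟨t, 0, rfl⟩)
  have hgBM : gB ∈ M := mul_mem (mul_mem hnM (hA1' _ ((fix_suz_iff hK _).2 ⟨1, 0, rfl⟩))) (inv_mem hnM)
  exact mul_mem (inv_mem (mul_mem hgAM hgBM)) (mul_mem hgBM hgAM)

end

set_option maxHeartbeats 1000000 in
theorem two_gen_F4 (hm : 1 ≤ m) (hK : Fintype.card K = 2 ^ (2 * m + 1)) :
    ∃ a b : ↥(twistedF4 K (2 ^ m)), Subgroup.closure ({a, b} : Set ↥(twistedF4 K (2 ^ m))) = ⊤ := by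
  haveI := charTwo_of_card hK
  obtain ⟨len, hR⟩ := (rulesF4 K).root
  obtain ⟨d1, d2, d2', -, ⟨-, -, -, -, hlt⟩, d10, n33, n24, n27, n25, n28, n30⟩ := dataF4
  set S := glSys (rulesF4 K)
  set T := twistF4 hK
  set O := orbF4 hK
  set W := grpF4 hK
  have hS := rulesF4 K
  have hM := glSys_HMul (rulesF4 K) hR
  let J0 : Fin twF4.nOrb := ⟨0, by decide⟩
  let J1 : Fin twF4.nOrb := ⟨1, by decide⟩
  have ep := twF4_ok.enum_posJ (T := T) (fun _ => rfl) rfl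
  have en := twF4_ok.enum_negJ (T := T) (fun _ => rfl) rfl hR
  set θ : ℕ := 2 ^ m
  obtain ⟨v, hv⟩ := exists_units_powers K
  have hcardU : Nat.card Kˣ = 2 ^ (2 * m + 1) - 1 := by rw [Nat.card_units, Nat.card_eq_fintype_card, hK]
  have hordv : orderOf v = 2 ^ (2 * m + 1) - 1 := by
    rw [← hcardU]
    exact orderOf_eq_card_of_forall_mem_zpowers fun z => by
      obtain ⟨i, hi⟩ := Submonoid.mem_powers_iff _ _ |>.1 (hv z)
      exact ⟨i, by simpa using hi⟩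
  have h2m : 2 ≤ 2 ^ m := le_self_pow₀ (by norm_num) (by omega)
  have h2sq : 2 ^ (2 * m + 1) = 2 * (2 ^ m * 2 ^ m) := by rw [pow_succ, two_mul, pow_add]; ring
  have hbig : 2 ^ m * 2 + 1 < 2 ^ (2 * m + 1) := by rw [h2sq]; nlinarith
  have hcopμ : (Nat.card Kˣ).Coprime (2 ^ (m + 1) - 1) := by
    rw [hcardU, Nat.coprime_iff_gcd_eq_one, Nat.pow_sub_one_gcd_pow_sub_one]
    have : Nat.gcd (2 * m + 1) (m + 1) = 1 := by
      rw [show 2 * m + 1 = m + (m + 1) by omega, Nat.gcd_add_self_left]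
      simp
    rw [this]; rfl
  -- torus
  set c := mkF4 (1 : Kˣ) (v ^ θ) v 1 with hcdef
  have hc : torusMap2 K (twF4.node chevF4) (kF4 m) c = c := (mem_fixF4_iff c).2 (by
    refine ⟨?_, ?_, ?_, ?_⟩ <;> simp [hcdef, mkF4, θ]
    rw [← pow_mul, mul_comm, units_pow_twice hK])
  set h := S.tau hS hR hM c
  have hh : h ∈ S.Hbar := tau_mem_Hbar hS hR hM c
  have hhT : h ∈ W.Tw := tau_mem_F4 hK hR hc
  set ks : List (Fin twF4.nOrb) := [J0, J1]
  obtain ⟨n, hn, hw, hnT⟩ : ∃ n, n ∈ S.Nbar ∧ S.ConjP n (O.word ks) ∧ n ∈ W.Tw := ⟨_, W.prod_nJ hS hR ks⟩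
  rw [show O.word ks = coxF4 from rfl] at hw
  have hchar : ∀ s, (List.range 4).map (fun j => chevF4.cartan j s) =
      [chevF4.cartan 0 s, chevF4.cartan 1 s, chevF4.cartan 2 s, chevF4.cartan 3 s] := fun s => rfl
  rw [hchar] at d2 d2'
  simp only [List.cons.injEq, and_true] at d2 d2'
  set μu : Kˣ := v ^ (2 ^ (m + 1) - 1) with hμu
  have hpm : 1 ≤ 2 ^ (m + 1) := Nat.one_le_two_pow
  have e21 : (∏ j : Fin chevF4.rank, c j ^ chevF4.cartan j 21) = μu := by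
    show (∏ j : Fin 4, c j ^ chevF4.cartan j 21) = _
    simp [Fin.prod_univ_four, hcdef, mkF4, d2', zpow_ofNat, hμu]
    rw [mul_inv_eq_iff_eq_mul, ← pow_succ, Nat.sub_add_cancel hpm, ← pow_mul, pow_succ]
  have e25 : (∏ j : Fin chevF4.rank, c j ^ chevF4.cartan j 25) = (v ^ (2 ^ (m + 1) - 2))⁻¹ := by
    show (∏ j : Fin 4, c j ^ chevF4.cartan j 25) = _
    simp [Fin.prod_univ_four, hcdef, mkF4, d2, zpow_ofNat]
    rw [eq_inv_iff_mul_eq_one, mul_assoc, ← pow_add, ← pow_mul, inv_mul_eq_one]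
    congr 1
    rw [pow_succ]; omega
  set lam : K := (((v ^ (2 ^ (m + 1) - 2))⁻¹ : Kˣ) : K)
  set μ : K := (μu : K)
  have hlam1 : lam ≠ 1 := by
    rw [Ne, Units.val_eq_one, inv_eq_one]
    intro h2
    have h3 : orderOf v ≤ 2 ^ (m + 1) - 2 := orderOf_le_of_pow_eq_one (by rw [pow_succ]; omega) h2
    rw [pow_succ] at h3
    omega
  have hμgen : ∀ z : Kˣ, ∃ i : ℕ, μu ^ i = z := exists_pow_coprime hv hcopμ
  have hμ1 : μ ≠ 1 := by
    rw [Ne, Units.val_eq_one]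
    exact ne_one_of_gen (by omega) hμgen
  have hconj25 : h * S.x 25 1 * h⁻¹ = S.x 25 lam := by
    rw [tau_conj hS hR hM c (hlt 25 (by simp)), e25, mul_one]
  set h' := n⁻¹ * h * n with hh'
  have hh'H : h' ∈ S.Hbar := by
    have := Sys.conj_mem_Hbar hS hR (inv_mem hn) hh
    simpa using this
  have hh'T : h' ∈ W.Tw := mul_mem (mul_mem (inv_mem hnT) hhT) hnT
  have hact : act chevF4 coxF4 27 = 13 ∧ act chevF4 coxF4 25 = 21 ∧ act chevF4 coxF4 28 = 11 ∧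
      act chevF4 coxF4 30 = 5 := by simpa using d1
  obtain ⟨cn, hcn, hnc⟩ := hw
  have hconj' : h' * S.x 25 1 * h'⁻¹ = S.x 25 μ := by
    have e1 := hnc 25 (hlt 25 (by simp)) 1
    have e2 := hnc 25 (hlt 25 (by simp)) μ
    rw [hact.2.1, mul_one] at e1
    rw [hact.2.1, mul_comm (cn 25)] at e2
    have e3 : h * S.x 21 (cn 25) * h⁻¹ = S.x 21 (μ * cn 25) := by
      rw [tau_conj hS hR hM c (hlt 21 (by simp)), e21]
    rw [← e2, ← e1] at e3
    have e4 : h' * S.x 25 1 * h'⁻¹ = n⁻¹ * (h * (n * S.x 25 1 * n⁻¹) * h⁻¹) * n := by simp [hh', mul_assoc]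
    rw [e4, e3]
    simp [mul_assoc]
  refine two_gen_of_le _ hhT (show n * eSuz m 1 0 ∈ twistedF4 K (2 ^ m) from mul_mem hnT (suz_mem_Tw hK 1 0))
    fun M hhM haM => ?_
  obtain ⟨hnM, hA1⟩ := core (M := M) (h := h) (n := n) (y := eSuz m 1 0) (fixUS T (O.posJ J1))
    (S.Hbar_comm hS hR hM h hh h' hh'H) hhM haM (suz_fix hK ⟨0, rfl⟩)
    (fun x hx => suz_mul_mem hK (suz_mul_mem hK (suz_fix hK ⟨0, rfl⟩) hx) (suz_inv_mem hK (suz_fix hK ⟨0, rfl⟩)))
    (fun P hP1 hP2 => suz_fill hK hm hR hh hhT hh'H hh'T hconj25 hconj' hlam1 hμ1 (units_pow_surj hμgen) hP1 hP2)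
  have hwM : HasWord W M coxF4 := ⟨n, hnM, hnT, cn, hcn, hnc⟩
  have hA1' : Good T M (O.posJ J1) := hA1
  have hA : UClosed chevF4 len (htHom chevF4) (O.posJ J1) := O.posJ_closed hR J1
  have hN0 : Good T M (O.negJ J0) := neg_pair_good hK hR hnT ⟨cn, hcn, hnc⟩ hnM hA1'
  have hstart : ∀ L ∈ ([[27, 25, 28, 30], [14, 23]] : List (List ℕ)),
      (∀ r ∈ L, r < chevF4.nroots) ∧ Good T M {r | r ∈ L} := by
    intro L hL
    simp only [List.mem_cons, List.not_mem_nil, or_false] at hL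
    rcases hL with rfl | rfl
    · exact ⟨fun r hr => hA.lt r (((ep J1).2 r).1 hr), hA1'.mono fun r hr => ((ep J1).2 r).1 hr⟩
    · exact ⟨fun r hr => hlt r (by simp at hr ⊢; omega), hN0.mono fun r hr => ((en J0).2 r).1 (by
        simpa [J0, TwData.posList, twF4, n33, n24] using hr)⟩
  have hreach : ∀ L ∈ ([[20, 22, 19, 17], [33, 24]] : List (List ℕ)), Good T M {r | r ∈ L} :=
    fun L hL => good_of_reach hR (W := W) (by simpa using hwM) 4 hstart (d10 L hL)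
  refine le_of_good W fun J => ?_
  fin_cases J
  · exact ⟨(hreach [33, 24] (by simp)).mono fun r hr => ((ep J0).2 r).2 hr, hN0⟩
  · exact ⟨hA1', (hreach [20, 22, 19, 17] (by simp)).mono fun r hr => by
      have := ((en J1).2 r).2 hr
      simpa [J1, TwData.posList, twF4, n27, n25, n28, n30] using this⟩

end Cfsg.Agent.TwoGenTw
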