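import Cfsg.Agent.TwoGenTw.Base
import Cfsg.Agent.ChevTw.TwG2Thms

/-! ²G₂(q) is two-generated (owner: helper17). -/

set_option autoImplicit false

namespace Cfsg.Agent.TwoGenTw

open Cfsg.Lie Cfsg.Agent.ChevGrp Cfsg.Agent.ChevTw
open scoped commutatorElement

/-- The longest word of ²G₂. -/
def longG2 : List (Fin chevG2.rank) :=
  ([0, 1, 0, 1, 0, 1] : List ℕ).filterMap fun i => if h : i < chevG2.rank then some ⟨i, h⟩ else none

theorem dataG2two :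
    act chevG2 longG2 6 = 5 ∧
    (List.range 2).map (fun j => chevG2.cartan j 6) = [-3, 2] ∧
    (List.range 2).map (fun j => chevG2.cartan j 5) = [3, -2] ∧
    reachCls chevG2 [longG2] 1 [[7, 6, 8, 9, 10, 11]] [4, 5, 3, 2, 1, 0] = true ∧
    (∀ r ∈ [7, 6, 8, 9, 10, 11, 5], r < chevG2.nroots) ∧
    chevG2.commTerms 7 8 = [(9, -2, 1, 1), (10, -3, 2, 1), (11, 3, 1, 2)] ∧
    chevG2.commTerms 6 10 = [(11, 1, 1, 1)] ∧
    (8 ≠ chevG2.neg 7 ∧ 10 ≠ chevG2.neg 6) ∧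
    (∀ ab ∈ [(7, 9), (7, 10), (7, 11), (6, 8), (6, 9), (6, 11)],
      ab.2 ≠ ab.1 ∧ ab.2 ≠ chevG2.neg ab.1 ∧
        ∀ c ∈ chevG2.commTerms ab.1 ab.2, c.1 < chevG2.nroots ∧ c.2.1 % 3 = 0) ∧
    (twG2.posList ⟨0, by decide⟩).map chevG2.neg = [4, 5, 3, 2, 1, 0] := by
  decide +kernel

variable {K : Type*} [Field K]

/-- An element of the unipotent group by its six coefficients. -/
noncomputable def eG2 (A B C D E F : K) : GL chevG2.Idx K :=
  (glSys (rulesG2 K)).x 7 A * (glSys (rulesG2 K)).x 6 B *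
    ((glSys (rulesG2 K)).x 8 C * (glSys (rulesG2 K)).x 9 D * (glSys (rulesG2 K)).x 10 E * (glSys (rulesG2 K)).x 11 F)

/-- An element of the Ree unipotent group by its three parameters. -/
noncomputable def eRee (m : ℕ) (t u v : K) : GL chevG2.Idx K :=
  eG2 (t ^ 3 ^ m) t (t ^ (3 ^ m + 1) + u ^ 3 ^ m) (t ^ (2 * 3 ^ m + 1) + v ^ 3 ^ m) u v

theorem eG2_mul [CharP K 3] (A B C D E F A' B' C' D' E' F' : K) :
    eG2 A B C D E F * eG2 A' B' C' D' E' F' = eG2 (A + A') (B + B') (C + C' + A' * B)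
      (D + D' + (-(A' * C) + A' ^ 2 * B)) (E + E' + -(A' ^ 3 * B))
      (F + F' + (-(B' * E) + -(A' ^ 3 * B ^ 2) + B' * (A' ^ 3 * B))) := by
  obtain ⟨-, -, -, -, hlt, h78, h610, ⟨n78, n610⟩, hc0, -⟩ := dataG2two
  obtain ⟨-, h76, -, ⟨n76, -⟩⟩ := dataG2pos
  set S := glSys (rulesG2 K)
  have h3 : (3 : K) = 0 := CharP.cast_eq_zero K 3
  have cast0 : ∀ z : ℤ, z % 3 = 0 → (z : K) = 0 := fun z hz => by
    obtain ⟨w, rfl⟩ := Int.dvd_of_emod_eq_zero hz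
    push_cast
    rw [h3, zero_mul]
  have hl : ∀ r, r ∈ [7, 6, 8, 9, 10, 11] → r < chevG2.nroots := fun r hr =>
    hlt r (List.mem_append_left [5] hr)
  have inner : ∀ r ∈ [8, 9, 10, 11], ∀ s ∈ [8, 9, 10, 11], ∀ t u : K, Commute (S.x r t) (S.x s u) := by
    intro r hr s hs t u
    by_cases hne : r = s
    · subst hne
      have hlr := hl r (List.mem_cons_of_mem _ (List.mem_cons_of_mem _ hr))
      show S.x r t * S.x r u = S.x r u * S.x r t
      rw [S.x_add r hlr, S.x_add r hlr, add_comm]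
    · obtain ⟨h1, h2, h3', h4⟩ := dataG2comm _ List.mem_cons_self r hr s hs hne
      exact x_commute_of_cast _ h1 h2 (Ne.symm hne) h3' (fun c hc => ⟨(h4 c hc).1, cast0 _ (h4 c hc).2⟩) t u
  have cz : ∀ a b : ℕ, (a, b) ∈ [(7, 9), (7, 10), (7, 11), (6, 8), (6, 9), (6, 11)] → ∀ t u : K,
      Commute (S.x b u) (S.x a t) := by
    intro a b hab t u
    obtain ⟨h1, h2, h4⟩ := hc0 _ hab
    refine (x_commute_of_cast _ (hl a ?_) (hl b ?_) h1 h2 (fun c hc => ⟨(h4 c hc).1, cast0 _ (h4 c hc).2⟩) t u).symm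
    all_goals (simp at hab ⊢; omega)
  have i87 : ∀ t u : K, S.x 8 u * S.x 7 t = S.x 7 t * S.x 8 u * S.x 9 (-(t * u)) := fun t u => by
    have e := S.comm 7 (hl 7 (by simp)) 8 (hl 8 (by simp)) (by decide) n78 t u
    have h2 : (2 : K) = -1 := by linear_combination h3
    simpa [ChevalleyDatum.commWord, h78, h3, h2, S.x_zero (hl 10 (by simp)), S.x_zero (hl 11 (by simp))] using e
  have i106 : ∀ t u : K, S.x 10 u * S.x 6 t = S.x 6 t * S.x 10 u * S.x 11 (-(t * u)) := fun t u => by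
    have e := S.comm 6 (hl 6 (by simp)) 10 (hl 10 (by simp)) (by decide) n610 t u
    simpa [ChevalleyDatum.commWord, h610] using e
  have i67 : ∀ t u : K, S.x 6 u * S.x 7 t = S.x 7 t * S.x 6 u *
      (S.x 8 (t * u) * S.x 9 (t ^ 2 * u) * S.x 10 (-(t ^ 3 * u)) * S.x 11 (-(t ^ 3 * u ^ 2))) := fun t u => by
    have e := S.comm 7 (hl 7 (by simp)) 6 (hl 6 (by simp)) (by decide) n76 t u
    have h3' : (-t) ^ 3 = -t ^ 3 := by ring
    simpa [ChevalleyDatum.commWord, h76, h3', mul_assoc] using e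
  have hR4 : ∀ c d e f c' d' e' f' : K, S.x 8 c * S.x 9 d * S.x 10 e * S.x 11 f *
      (S.x 8 c' * S.x 9 d' * S.x 10 e' * S.x 11 f') =
      S.x 8 (c + c') * S.x 9 (d + d') * S.x 10 (e + e') * S.x 11 (f + f') := by
    intro c d e f c' d' e' f'
    rw [← S.x_add 8 (hl 8 (by simp)), ← S.x_add 9 (hl 9 (by simp)), ← S.x_add 10 (hl 10 (by simp)),
      ← S.x_add 11 (hl 11 (by simp))]
    calc S.x 8 c * S.x 9 d * S.x 10 e * S.x 11 f * (S.x 8 c' * S.x 9 d' * S.x 10 e' * S.x 11 f')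
        = S.x 8 c * (S.x 9 d * S.x 10 e * S.x 11 f * S.x 8 c') * (S.x 9 d' * S.x 10 e' * S.x 11 f') := by
          simp only [mul_assoc]
      _ = S.x 8 c * S.x 8 c' * S.x 9 d * (S.x 10 e * S.x 11 f * S.x 9 d') * (S.x 10 e' * S.x 11 f') := by
          rw [(((inner 9 (by simp) 8 (by simp) d c').mul_left (inner 10 (by simp) 8 (by simp) e c')).mul_left
            (inner 11 (by simp) 8 (by simp) f c')).eq]
          simp only [mul_assoc]
      _ = S.x 8 c * S.x 8 c' * (S.x 9 d * S.x 9 d') * S.x 10 e * (S.x 11 f * S.x 10 e') * S.x 11 f' := by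
          rw [((inner 10 (by simp) 9 (by simp) e d').mul_left (inner 11 (by simp) 9 (by simp) f d')).eq]
          simp only [mul_assoc]
      _ = _ := by
          rw [(inner 11 (by simp) 10 (by simp) f e').eq]
          simp only [mul_assoc]
  have s7 : ∀ c d e f a : K, S.x 8 c * S.x 9 d * S.x 10 e * S.x 11 f * S.x 7 a =
      S.x 7 a * (S.x 8 c * S.x 9 (-(a * c) + d) * S.x 10 e * S.x 11 f) := by
    intro c d e f a
    calc S.x 8 c * S.x 9 d * S.x 10 e * S.x 11 f * S.x 7 a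
        = S.x 8 c * (S.x 9 d * S.x 10 e * S.x 11 f * S.x 7 a) := by simp only [mul_assoc]
      _ = S.x 8 c * S.x 7 a * (S.x 9 d * S.x 10 e * S.x 11 f) := by
          rw [(((cz 7 9 (by simp) a d).mul_left (cz 7 10 (by simp) a e)).mul_left (cz 7 11 (by simp) a f)).eq]
          simp only [mul_assoc]
      _ = _ := by rw [i87, ← S.x_add 9 (hl 9 (by simp))]; simp only [mul_assoc]
  have s6 : ∀ c d e f b : K, S.x 8 c * S.x 9 d * S.x 10 e * S.x 11 f * S.x 6 b =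
      S.x 6 b * (S.x 8 c * S.x 9 d * S.x 10 e * S.x 11 (-(b * e) + f)) := by
    intro c d e f b
    calc S.x 8 c * S.x 9 d * S.x 10 e * S.x 11 f * S.x 6 b
        = S.x 8 c * S.x 9 d * S.x 10 e * (S.x 11 f * S.x 6 b) := by simp only [mul_assoc]
      _ = S.x 8 c * S.x 9 d * (S.x 10 e * S.x 6 b) * S.x 11 f := by
          rw [(cz 6 11 (by simp) b f).eq]
          simp only [mul_assoc]
      _ = (S.x 8 c * S.x 9 d * S.x 6 b) * (S.x 10 e * S.x 11 (-(b * e)) * S.x 11 f) := by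
          rw [i106]; simp only [mul_assoc]
      _ = _ := by
          rw [((cz 6 8 (by simp) b c).mul_left (cz 6 9 (by simp) b d)).eq, mul_assoc (S.x 10 e),
            S.x_add 11 (hl 11 (by simp))]
          simp only [mul_assoc]
  simp only [eG2]
  calc S.x 7 A * S.x 6 B * (S.x 8 C * S.x 9 D * S.x 10 E * S.x 11 F) *
        (S.x 7 A' * S.x 6 B' * (S.x 8 C' * S.x 9 D' * S.x 10 E' * S.x 11 F'))
      = S.x 7 A * S.x 6 B * (S.x 8 C * S.x 9 D * S.x 10 E * S.x 11 F * S.x 7 A') * S.x 6 B' *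
          (S.x 8 C' * S.x 9 D' * S.x 10 E' * S.x 11 F') := by simp only [mul_assoc]
    _ = S.x 7 A * (S.x 6 B * S.x 7 A') * (S.x 8 C * S.x 9 (-(A' * C) + D) * S.x 10 E * S.x 11 F) * S.x 6 B' *
          (S.x 8 C' * S.x 9 D' * S.x 10 E' * S.x 11 F') := by rw [s7]; simp only [mul_assoc]
    _ = S.x 7 A * S.x 7 A' * S.x 6 B *
          ((S.x 8 (A' * B) * S.x 9 (A' ^ 2 * B) * S.x 10 (-(A' ^ 3 * B)) * S.x 11 (-(A' ^ 3 * B ^ 2)) *
            (S.x 8 C * S.x 9 (-(A' * C) + D) * S.x 10 E * S.x 11 F)) * S.x 6 B') *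
          (S.x 8 C' * S.x 9 D' * S.x 10 E' * S.x 11 F') := by rw [i67]; simp only [mul_assoc]
    _ = S.x 7 A * S.x 7 A' * (S.x 6 B * S.x 6 B') *
          (S.x 8 (A' * B + C) * S.x 9 (A' ^ 2 * B + (-(A' * C) + D)) * S.x 10 (-(A' ^ 3 * B) + E) *
              S.x 11 (-(B' * (-(A' ^ 3 * B) + E)) + (-(A' ^ 3 * B ^ 2) + F)) *
            (S.x 8 C' * S.x 9 D' * S.x 10 E' * S.x 11 F')) := by
        rw [hR4, s6]; simp only [mul_assoc]
    _ = _ := by
        rw [hR4, S.x_add 7 (hl 7 (by simp)), S.x_add 6 (hl 6 (by simp)),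
          show A' * B + C + C' = C + C' + A' * B by ring,
          show A' ^ 2 * B + (-(A' * C) + D) + D' = D + D' + (-(A' * C) + A' ^ 2 * B) by ring,
          show -(A' ^ 3 * B) + E + E' = E + E' + -(A' ^ 3 * B) by ring,
          show -(B' * (-(A' ^ 3 * B) + E)) + (-(A' ^ 3 * B ^ 2) + F) + F' =
            F + F' + (-(B' * E) + -(A' ^ 3 * B ^ 2) + B' * (A' ^ 3 * B)) by ring]

variable [Fintype K] {m : ℕ} (hK : Fintype.card K = 3 ^ (2 * m + 1)) {len : ℕ → ℕ}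

include hK in
theorem eG2_unique (hR : RootTable chevG2 len) {A B C D E F A' B' C' D' E' F' : K}
    (e : eG2 A B C D E F = eG2 A' B' C' D' E' F') : B = B' ∧ E = E' ∧ F = F' := by
  have hzip : ∀ a b c d e f : K, eG2 a b c d e f =
      (List.zipWith (glSys (rulesG2 K)).x [7, 6, 8, 9, 10, 11] [a, b, c, d, e, f]).prod := fun a b c d e f => by
    simp [eG2, mul_assoc]
  rw [hzip, hzip] at e
  have := zip_unique hR ((orbG2 hK).posJ_closed hR ⟨0, by decide⟩)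
    (twG2_ok.enum_posJ (T := twistG2 hK) (fun _ => rfl) rfl ⟨0, by decide⟩)
    (v := [A, B, C, D, E, F]) (v' := [A', B', C', D', E', F']) rfl rfl e
  simp only [List.cons.injEq, and_true] at this
  exact ⟨this.2.1, this.2.2.2.2.1, this.2.2.2.2.2⟩

theorem fix_ree_iff (g : GL chevG2.Idx K) :
    g ∈ fixUS (twistG2 hK) ((orbG2 hK).posJ ⟨0, by decide⟩) ↔ ∃ t u v : K, g = eRee m t u v := by
  rw [show (orbG2 hK).posJ ⟨0, by decide⟩ = (bif false then (orbG2 hK).negJ ⟨0, by decide⟩ else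
    (orbG2 hK).posJ ⟨0, by decide⟩) from rfl, fixG2 hK ⟨0, by decide⟩ false g]
  refine exists_congr fun t => exists_congr fun u => exists_congr fun v => ?_
  simp [eRee, eG2, reeWordU, glSys, g2a, g2b, g2ab, g2aab, g2aaab, g2aaabb, mul_assoc]

/-- The group law. -/
theorem eRee_mul (hK : Fintype.card K = 3 ^ (2 * m + 1)) (hR : RootTable chevG2 len) (t u v t' u' v' : K) :
    eRee m t u v * eRee m t' u' v' = eRee m (t + t') (u + u' + -((t' ^ 3 ^ m) ^ 3 * t))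
      (v + v' + (-(t' * u) + -((t' ^ 3 ^ m) ^ 3 * t ^ 2) + t' * ((t' ^ 3 ^ m) ^ 3 * t))) := by
  haveI := charG2 hK
  have hA := (orbG2 hK).posJ_closed hR ⟨0, by decide⟩
  have h1 := (fix_ree_iff hK (eRee m t u v)).2 ⟨_, _, _, rfl⟩
  have h2 := (fix_ree_iff hK (eRee m t' u' v')).2 ⟨_, _, _, rfl⟩
  have hG := Twist.US_le_Gbar (S := glSys (rulesG2 K)) (A := (orbG2 hK).posJ ⟨0, by decide⟩)
    (fun r hr => hA.lt r hr)
  obtain ⟨s, a, b, hs⟩ := (fix_ree_iff hK _).1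
    (⟨mul_mem h1.1 h2.1, by rw [(twistG2 hK).sig_mul _ (hG h1.1) _ (hG h2.1), h1.2, h2.2]⟩ :
      eRee m t u v * eRee m t' u' v' ∈ fixUS (twistG2 hK) ((orbG2 hK).posJ ⟨0, by decide⟩))
  have e := hs
  simp only [eRee, eG2_mul] at e
  obtain ⟨e1, e2, e3⟩ := eG2_unique hK hR e
  rw [hs, ← e1, ← e2, ← e3]

include hK in
theorem eRee_inj (hR : RootTable chevG2 len) {t u v t' u' v' : K} (e : eRee m t u v = eRee m t' u' v') :
    t = t' ∧ u = u' ∧ v = v' := eG2_unique hK hR e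

/-- The first parameter. -/
def Tree (m : ℕ) (g : GL chevG2.Idx K) (t : K) : Prop := ∃ u v, g = eRee m t u v

theorem eRee_one : eRee m (0 : K) 0 0 = 1 := by
  obtain ⟨-, -, -, -, hlt, -⟩ := dataG2two
  simp [eRee, eG2, (glSys (rulesG2 K)).x_zero (hlt 7 (by simp)), (glSys (rulesG2 K)).x_zero (hlt 6 (by simp)),
    (glSys (rulesG2 K)).x_zero (hlt 8 (by simp)), (glSys (rulesG2 K)).x_zero (hlt 9 (by simp)),
    (glSys (rulesG2 K)).x_zero (hlt 10 (by simp)), (glSys (rulesG2 K)).x_zero (hlt 11 (by simp))]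

include hK in
theorem tree_inv (hR : RootTable chevG2 len) {g : GL chevG2.Idx K} {t : K} (h : Tree m g t) : Tree m g⁻¹ (-t) := by
  obtain ⟨u, v, rfl⟩ := h
  have hn : 3 ^ m ≠ 0 := pow_ne_zero _ (by norm_num)
  refine ⟨-(u + -(((-t) ^ 3 ^ m) ^ 3 * t)), -(v + (-((-t) * u) + -(((-t) ^ 3 ^ m) ^ 3 * t ^ 2) +
    (-t) * (((-t) ^ 3 ^ m) ^ 3 * t))), ?_⟩
  refine inv_eq_of_mul_eq_one_right ?_
  rw [eRee_mul hK hR, ← eRee_one (K := K) (m := m)]
  congr 1 <;> ring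

include hK in
theorem tree_mul (hR : RootTable chevG2 len) {g g' : GL chevG2.Idx K} {t t' : K} (h : Tree m g t)
    (h' : Tree m g' t') : Tree m (g * g') (t + t') := by
  obtain ⟨u, v, rfl⟩ := h
  obtain ⟨u', v', rfl⟩ := h'
  exact ⟨_, _, eRee_mul hK hR ..⟩

set_option maxHeartbeats 1000000 in
include hK in
theorem tree_conj (hR : RootTable chevG2 len) {k : GL chevG2.Idx K} (hk : k ∈ (glSys (rulesG2 K)).Hbar)
    (hkT : k ∈ (grpG2 hK).Tw) {χ : K}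
    (hχ : k * (glSys (rulesG2 K)).x 6 1 * k⁻¹ = (glSys (rulesG2 K)).x 6 χ) {g : GL chevG2.Idx K} {t : K}
    (h : Tree m g t) : Tree m (k * g * k⁻¹) (χ * t) := by
  obtain ⟨-, -, -, -, hlt, -⟩ := dataG2two
  set S := glSys (rulesG2 K)
  obtain ⟨c0, -, hc0⟩ := S.conjP_Hbar (rulesG2 K) hR hk
  simp only [act_nil] at hc0
  have he : ∀ a b c d e f : K, k * eG2 a b c d e f * k⁻¹ =
      eG2 (c0 7 * a) (c0 6 * b) (c0 8 * c) (c0 9 * d) (c0 10 * e) (c0 11 * f) := by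
    intro a b c d e f
    simp only [eG2]
    rw [← hc0 7 (hlt 7 (by simp)) a, ← hc0 6 (hlt 6 (by simp)) b, ← hc0 8 (hlt 8 (by simp)) c,
      ← hc0 9 (hlt 9 (by simp)) d, ← hc0 10 (hlt 10 (by simp)) e, ← hc0 11 (hlt 11 (by simp)) f]
    simp [mul_assoc, S]
  have hc6 : c0 6 = χ := by
    have e := hc0 6 (hlt 6 (by simp)) 1
    rw [hχ, mul_one] at e
    have h0 : ∀ v : K, eG2 (0 : K) v 0 0 0 0 = S.x 6 v := fun v => by
      simp [eG2, S.x_zero (hlt 7 (by simp)), S.x_zero (hlt 8 (by simp)), S.x_zero (hlt 9 (by simp)),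
        S.x_zero (hlt 10 (by simp)), S.x_zero (hlt 11 (by simp)), S]
    rw [← h0, ← h0] at e
    exact (eG2_unique hK hR e).1.symm
  obtain ⟨u, v, rfl⟩ := h
  obtain ⟨s, a, b, hs⟩ := (fix_ree_iff hK _).1 ((grpG2 hK).conj_neg_fix hkT (S.conjP_Hbar (rulesG2 K) hR hk)
    (fun r hr => (orbG2 hK).posJ_lt r hr) (fun r hr => by rwa [act_nil]) ((fix_ree_iff hK _).2 ⟨t, u, v, rfl⟩))
  refine ⟨a, b, ?_⟩
  have e := hs
  simp only [eRee, he] at e
  rw [← (eG2_unique hK hR e).1, hc6] at hs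
  exact hs

include hK in
theorem ree_fill (hm : 1 ≤ m) (hR : RootTable chevG2 len) {h h' : GL chevG2.Idx K}
    (hh : h ∈ (glSys (rulesG2 K)).Hbar) (hhT : h ∈ (grpG2 hK).Tw)
    (hh'H : h' ∈ (glSys (rulesG2 K)).Hbar) (hh'T : h' ∈ (grpG2 hK).Tw) {lam μ : K}
    (hconj : h * (glSys (rulesG2 K)).x 6 1 * h⁻¹ = (glSys (rulesG2 K)).x 6 lam)
    (hconj' : h' * (glSys (rulesG2 K)).x 6 1 * h'⁻¹ = (glSys (rulesG2 K)).x 6 μ)
    (hlam1 : lam ≠ 1) (hμ1 : μ ≠ 1) (hμgen : ∀ z : K, z ≠ 0 → ∃ k : ℕ, μ ^ k = z)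
    {P : Subgroup (GL chevG2.Idx K)} (hP1 : h' ∈ P) (hP2 : ⁅⁅eRee m (1 : K) 0 0, h⁆, h'⁆ ∈ P) :
    fixUS (twistG2 hK) ((orbG2 hK).posJ ⟨0, by decide⟩) ⊆ P := by
  haveI := charG2 hK
  have h3 : (3 : K) = 0 := CharP.cast_eq_zero K 3
  have hn0 : 3 ^ m ≠ 0 := pow_ne_zero _ (by norm_num)
  have hcom : ∀ {k : GL chevG2.Idx K}, k ∈ (glSys (rulesG2 K)).Hbar → k ∈ (grpG2 hK).Tw → ∀ {χ : K},
      k * (glSys (rulesG2 K)).x 6 1 * k⁻¹ = (glSys (rulesG2 K)).x 6 χ → ∀ {g t}, Tree m g t →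
      Tree m ⁅g, k⁆ (t + χ * -t) := by
    intro k hk hkT χ hχ g t hg
    rw [commutatorElement_def, show g * k * g⁻¹ * k⁻¹ = g * (k * g⁻¹ * k⁻¹) by group]
    exact tree_mul hK hR hg (tree_conj hK hR hk hkT hχ (tree_inv hK hR hg))
  have h0 := hcom hh'H hh'T hconj' (hcom hh hhT hconj (show Tree m (eRee m (1 : K) 0 0) 1 from ⟨0, 0, rfl⟩))
  set z := 1 + lam * -1 + μ * -(1 + lam * -1)
  have hz0 : z ≠ 0 := by
    rw [show z = (1 - μ) * (1 - lam) by ring]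
    exact mul_ne_zero (sub_ne_zero.2 hμ1.symm) (sub_ne_zero.2 hlam1.symm)
  have hk : ∀ k : ℕ, ∃ g ∈ P, Tree m g (μ ^ k * z) := by
    intro k
    induction k with
    | zero => exact ⟨_, hP2, by simpa using h0⟩
    | succ k ih =>
      obtain ⟨g, hg, hgt⟩ := ih
      exact ⟨_, mul_mem (mul_mem hP1 hg) (inv_mem hP1), by
        rw [pow_succ', mul_assoc μ]; exact tree_conj hK hR hh'H hh'T hconj' hgt⟩
  have hall : ∀ t : K, ∃ u v, eRee m t u v ∈ P := by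
    intro t
    by_cases ht : t = 0
    · exact ⟨0, 0, by rw [ht, eRee_one]; exact one_mem P⟩
    obtain ⟨k, hk'⟩ := hμgen (t / z) (div_ne_zero ht hz0)
    obtain ⟨g, hg, u, v, hgt⟩ := hk k
    rw [hk', div_mul_cancel₀ _ hz0] at hgt
    exact ⟨u, v, hgt ▸ hg⟩
  -- the second level
  have hsq : ∀ t s : K, ∃ w, eRee m 0 ((t ^ 3 ^ m) ^ 3 * s - (s ^ 3 ^ m) ^ 3 * t) w ∈ P := by
    intro t s
    obtain ⟨u, v, hg⟩ := hall t
    obtain ⟨u', v', hg'⟩ := hall s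
    have hmem := mul_mem (inv_mem (mul_mem hg' hg)) (mul_mem hg hg')
    obtain ⟨a, w, hw⟩ : Tree m ((eRee m s u' v' * eRee m t u v)⁻¹ * (eRee m t u v * eRee m s u' v')) 0 := by
      have := tree_mul hK hR (tree_inv hK hR (tree_mul hK hR (⟨u', v', rfl⟩ : Tree m (eRee m s u' v') s)
        (⟨u, v, rfl⟩ : Tree m (eRee m t u v) t))) (tree_mul hK hR (⟨u, v, rfl⟩ : Tree m (eRee m t u v) t)
        (⟨u', v', rfl⟩ : Tree m (eRee m s u' v') s))
      rwa [show -(s + t) + (t + s) = 0 by ring] at this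
    rw [hw] at hmem
    rw [inv_mul_eq_iff_eq_mul, eRee_mul hK hR, eRee_mul hK hR, eRee_mul hK hR] at hw
    obtain ⟨-, hu, -⟩ := eRee_inj hK hR hw
    simp only [zero_pow hn0, zero_pow (Nat.succ_ne_zero 2), zero_mul, neg_zero, add_zero] at hu
    refine ⟨w, ?_⟩
    rwa [show a = (t ^ 3 ^ m) ^ 3 * s - (s ^ 3 ^ m) ^ 3 * t by linear_combination -hu] at hmem
  have hadd : ∀ a a' : K, (∃ w, eRee m 0 a w ∈ P) → (∃ w, eRee m 0 a' w ∈ P) →
      ∃ w, eRee m 0 (a - a') w ∈ P := by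
    rintro a a' ⟨w, hw⟩ ⟨w', hw'⟩
    have hmem := mul_mem hw (inv_mem hw')
    refine ⟨w - w', ?_⟩
    convert hmem using 1
    rw [eq_mul_inv_iff_mul_eq, eRee_mul hK hR]
    congr 1 <;> simp [zero_pow hn0]
  obtain ⟨r, hr⟩ : ∃ r : K, (r ^ 3 ^ m) ^ 3 ≠ r := by
    obtain ⟨g, hg⟩ := exists_units_powers K
    refine ⟨g, fun e => ?_⟩
    have h1 : orderOf g = 3 ^ (2 * m + 1) - 1 := by
      rw [orderOf_eq_card_of_forall_mem_zpowers fun z => by
        obtain ⟨i, hi⟩ := Submonoid.mem_powers_iff _ _ |>.1 (hg z)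
        exact ⟨i, by simpa using hi⟩, Nat.card_units, Nat.card_eq_fintype_card, hK]
    have h2 : g ^ (3 * 3 ^ m - 1) = 1 := by
      refine mul_right_cancel (b := g) ?_
      rw [one_mul, ← pow_succ, Nat.sub_add_cancel (Nat.one_le_iff_ne_zero.2 (by positivity) : 1 ≤ 3 * 3 ^ m)]
      refine Units.ext ?_
      rw [← pow_mul] at e
      rwa [Units.val_pow_eq_pow_val, mul_comm]
    have h4 : 3 ^ (m + 1) < 3 ^ (2 * m + 1) := Nat.pow_lt_pow_right (by norm_num) (by omega)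
    rw [pow_succ, mul_comm] at h4
    have h5 : 1 ≤ 3 ^ m := Nat.one_le_pow _ _ (by norm_num)
    have h6 := orderOf_le_of_pow_eq_one (by omega) h2
    omega
  have hsecond : ∀ a : K, ∃ w, eRee m 0 a w ∈ P := by
    intro a
    have hsquare : ∀ x : K, ∃ w, eRee m 0 (x ^ 2 * (r - (r ^ 3 ^ m) ^ 3)) w ∈ P := by
      intro x
      by_cases hx : x = 0
      · exact ⟨0, by rw [hx]; simp [eRee_one]⟩
      set s := x ^ (3 * 3 ^ m - 1)
      have he : (s ^ 3 ^ m) ^ 3 * s = x ^ 2 := by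
        refine mul_right_cancel₀ hx ?_
        have h5 : 1 ≤ 3 * 3 ^ m := Nat.one_le_iff_ne_zero.2 (by positivity)
        rw [← pow_mul, ← pow_mul, ← pow_add, ← pow_succ, ← pow_succ]
        have e : (3 * 3 ^ m - 1) * 3 ^ (m + 1) + (3 * 3 ^ m - 1) + 1 = 3 * 3 ^ (2 * m + 1) := by
          obtain ⟨k, hk⟩ : ∃ k, 3 * 3 ^ m = k + 1 := ⟨_, (Nat.sub_add_cancel h5).symm⟩
          rw [show 3 * 3 ^ (2 * m + 1) = (3 * 3 ^ m) * (3 * 3 ^ m) by rw [pow_succ, two_mul, pow_add]; ring,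
            pow_succ 3 m, mul_comm (3 ^ m) 3, hk, Nat.add_sub_cancel]
          ring
        rw [e, mul_comm, pow_mul, ← hK, FiniteField.pow_card, pow_succ x 2]
      obtain ⟨w, hw⟩ := hsq s (s * r)
      refine ⟨w, ?_⟩
      rwa [show (s ^ 3 ^ m) ^ 3 * (s * r) - ((s * r) ^ 3 ^ m) ^ 3 * s = x ^ 2 * (r - (r ^ 3 ^ m) ^ 3) by
        rw [← he]; ring] at hw
    set D := r - (r ^ 3 ^ m) ^ 3
    have hD : D ≠ 0 := sub_ne_zero.2 (Ne.symm hr)
    have h2 : (2 : K) ≠ 0 := by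
      intro h
      have : (1 : K) = 0 := by linear_combination h3 - h
      exact one_ne_zero this
    have := hadd _ _ (hsquare ((a / D + 1) / 2)) (hsquare ((a / D - 1) / 2))
    rwa [show ((a / D + 1) / 2) ^ 2 * D - ((a / D - 1) / 2) ^ 2 * D = a by field_simp; ring] at this
  have hthird : ∀ b : K, eRee m 0 0 b ∈ P := by
    intro b
    obtain ⟨u, v, hg⟩ := hall 1
    obtain ⟨w, hw⟩ := hsecond (-b)
    have hmem := mul_mem (inv_mem (mul_mem hg hw)) (mul_mem hw hg)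
    convert hmem using 1
    rw [eq_inv_mul_iff_mul_eq, eRee_mul hK hR, eRee_mul hK hR, eRee_mul hK hR]
    congr 1 <;> simp [zero_pow hn0] <;> ring
  intro g hg
  obtain ⟨t, u, v, rfl⟩ := (fix_ree_iff hK _).1 hg
  obtain ⟨u1, v1, h1⟩ := hall t
  obtain ⟨w, h2⟩ := hsecond (u - u1)
  have hmem := mul_mem (mul_mem h1 h2) (hthird (v - v1 - w))
  convert hmem using 1
  rw [eRee_mul hK hR, eRee_mul hK hR]
  congr 1 <;> simp [zero_pow hn0] <;> ring

set_option maxHeartbeats 1000000 in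
theorem two_gen_G2 (hK : Fintype.card K = 3 ^ (2 * m + 1)) (hm : 1 ≤ m) :
    ∃ a b : ↥(twistedG2 K (3 ^ m)), Subgroup.closure ({a, b} : Set ↥(twistedG2 K (3 ^ m))) = ⊤ := by
  obtain ⟨len, hR⟩ := (rulesG2 K).root
  obtain ⟨d1, d2, d2', d4, hlt, -, -, -, -, hmap⟩ := dataG2two
  set S := glSys (rulesG2 K)
  set T := twistG2 hK
  set O := orbG2 hK
  set W := grpG2 hK
  have hS := rulesG2 K
  have hM := glSys_HMul (rulesG2 K) hR
  let J0 : Fin twG2.nOrb := ⟨0, by decide⟩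
  have ep := twG2_ok.enum_posJ (T := T) (fun _ => rfl) rfl J0
  have en := twG2_ok.enum_negJ (T := T) (fun _ => rfl) rfl hR J0
  obtain ⟨v, hv⟩ := exists_units_powers K
  have hcardU : Nat.card Kˣ = 3 ^ (2 * m + 1) - 1 := by rw [Nat.card_units, Nat.card_eq_fintype_card, hK]
  have h27 : 27 ≤ 3 ^ (2 * m + 1) := le_trans (by norm_num) (Nat.pow_le_pow_right (by norm_num) (by omega : 3 ≤ 2 * m + 1))
  have h3m : 3 ≤ 3 ^ m := le_self_pow₀ (by norm_num) (by omega)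
  have hcop : (Nat.card Kˣ).Coprime (3 * 3 ^ m - 2) := by
    rw [hcardU]
    obtain ⟨k, hk⟩ : ∃ k, 3 * 3 ^ m = k + 2 := ⟨3 * 3 ^ m - 2, by omega⟩
    have e : k * (k + 4) + 1 = 3 * (3 ^ (2 * m + 1) - 1) := by
      have : 3 * 3 ^ (2 * m + 1) = (k + 2) * (k + 2) := by rw [← hk, pow_succ, two_mul, pow_add]; ring
      rw [Nat.mul_sub, this]
      have : (k + 2) * (k + 2) = k * (k + 4) + 4 := by ring
      omega
    rw [hk, Nat.add_sub_cancel]
    refine Nat.coprime_of_dvd fun p hp h1 h2 => ?_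
    have h5 : p ∣ k * (k + 4) + 1 := e ▸ h1.mul_left 3
    rw [Nat.dvd_add_right (h2.mul_right _)] at h5
    exact hp.one_lt.ne' (Nat.dvd_one.1 h5)
  set c := mkG2 (v ^ 3 ^ m) v with hcdef
  have hc : torusMap2 K (twG2.node chevG2) (kG2 m) c = c := (mem_fixTorusG2_iff c).2 (by
    refine ⟨rfl, ?_⟩
    refine Units.ext ?_
    simp only [hcdef, mkG2, List.getD_cons_zero, List.getD_cons_succ, Units.val_pow_eq_pow_val]
    exact pow_hinvG2 hK _)
  set h := S.tau hS hR hM c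
  have hh : h ∈ S.Hbar := tau_mem_Hbar hS hR hM c
  have hhT : h ∈ W.Tw := tau_mem_G2 hK hR hc
  obtain ⟨n, hn, hw, hnT⟩ : ∃ n, n ∈ S.Nbar ∧ S.ConjP n (O.word [J0]) ∧ n ∈ W.Tw := ⟨_, W.prod_nJ hS hR [J0]⟩
  rw [show O.word [J0] = longG2 from rfl] at hw
  have hchar : ∀ s, (List.range 2).map (fun j => chevG2.cartan j s) = [chevG2.cartan 0 s, chevG2.cartan 1 s] :=
    fun s => rfl
  rw [hchar] at d2 d2'
  simp only [List.cons.injEq, and_true] at d2 d2'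
  set μu : Kˣ := v ^ (3 * 3 ^ m - 2) with hμu
  have e5 : (∏ j : Fin chevG2.rank, c j ^ chevG2.cartan j 5) = μu := by
    show (∏ j : Fin 2, c j ^ chevG2.cartan j 5) = _
    simp [Fin.prod_univ_two, hcdef, mkG2, d2', zpow_ofNat, hμu]
    rw [mul_inv_eq_iff_eq_mul, ← pow_add, Nat.sub_add_cancel (by omega), ← pow_mul, mul_comm]
  have e6 : (∏ j : Fin chevG2.rank, c j ^ chevG2.cartan j 6) = μu⁻¹ := by
    show (∏ j : Fin 2, c j ^ chevG2.cartan j 6) = _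
    simp [Fin.prod_univ_two, hcdef, mkG2, d2, zpow_ofNat, hμu]
    rw [eq_inv_iff_mul_eq_one, mul_assoc, ← pow_add, Nat.add_sub_cancel' (by omega), ← pow_mul, mul_comm (3 ^ m),
      inv_mul_cancel]
  have hμgen : ∀ z : Kˣ, ∃ i : ℕ, μu ^ i = z := exists_pow_coprime hv hcop
  have hμ1 : μu ≠ 1 := ne_one_of_gen (by omega) hμgen
  set h' := n⁻¹ * h * n with hh'
  have hh'H : h' ∈ S.Hbar := by
    have := Sys.conj_mem_Hbar hS hR (inv_mem hn) hh
    simpa using this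
  have hh'T : h' ∈ W.Tw := mul_mem (mul_mem (inv_mem hnT) hhT) hnT
  have hconj : h * S.x 6 1 * h⁻¹ = S.x 6 ((μu⁻¹ : Kˣ) : K) := by
    rw [tau_conj hS hR hM c (hlt 6 (by simp)), e6, mul_one]
  obtain ⟨cn, hcn, hnc⟩ := hw
  have hconj' : h' * S.x 6 1 * h'⁻¹ = S.x 6 (μu : K) := by
    have e1 := hnc 6 (hlt 6 (by simp)) 1
    have e2 := hnc 6 (hlt 6 (by simp)) (μu : K)
    rw [d1, mul_one] at e1
    rw [d1, mul_comm (cn 6)] at e2
    have e3 : h * S.x 5 (cn 6) * h⁻¹ = S.x 5 ((μu : K) * cn 6) := by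
      rw [tau_conj hS hR hM c (hlt 5 (by simp)), e5]
    rw [← e2, ← e1] at e3
    have e4 : h' * S.x 6 1 * h'⁻¹ = n⁻¹ * (h * (n * S.x 6 1 * n⁻¹) * h⁻¹) * n := by simp [hh', mul_assoc]
    rw [e4, e3]
    simp [mul_assoc]
  have hy : eRee m (1 : K) 0 0 ∈ fixUS T (O.posJ J0) := (fix_ree_iff hK _).2 ⟨1, 0, 0, rfl⟩
  refine two_gen_of_le _ hhT (show n * eRee m 1 0 0 ∈ twistedG2 K (3 ^ m) from
    mul_mem hnT (W.fixPos_mem J0 hy)) fun M hhM haM => ?_
  have hG : S.US (O.posJ J0) ≤ S.Gbar := Twist.US_le_Gbar fun r hr => O.posJ_lt r hr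
  obtain ⟨hnM, hA⟩ := core (M := M) (h := h) (n := n) (y := eRee m 1 0 0) (fixUS T (O.posJ J0))
    (S.Hbar_comm hS hR hM h hh h' hh'H) hhM haM hy
    (fun x hx => ⟨mul_mem (mul_mem hy.1 hx.1) (inv_mem hy.1), by
      rw [T.sig_mul _ (mul_mem (hG hy.1) (hG hx.1)) _ (inv_mem (hG hy.1)), T.sig_mul _ (hG hy.1) _ (hG hx.1),
        T.sig_inv (hG hy.1), hy.2, hx.2]⟩)
    (fun P hP1 hP2 => ree_fill hK hm hR hh hhT hh'H hh'T hconj hconj'
      (by simpa [Units.val_eq_one] using hμ1) (by simpa [Units.val_eq_one] using hμ1)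
      (units_pow_surj hμgen) hP1 hP2)
  have hA' : Good T M (O.posJ J0) := hA
  have hneg : Good T M {r | r ∈ [4, 5, 3, 2, 1, 0]} :=
    good_of_reach hR (W := W) (ws := [longG2]) (by
      simpa using (show HasWord W M longG2 from ⟨n, hnM, hnT, cn, hcn, hnc⟩)) 1
      (start := [[7, 6, 8, 9, 10, 11]]) (fun L hL => by
        rw [List.mem_singleton] at hL
        subst hL
        exact ⟨fun r hr => O.posJ_lt r ((ep.2 r).1 hr), hA'.mono fun r hr => (ep.2 r).1 hr⟩) d4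
  refine le_of_good W fun J => ?_
  obtain rfl : J = J0 := Subsingleton.elim (α := Fin 1) _ _
  exact ⟨hA', hneg.mono fun r hr => by
    have := (en.2 r).2 hr
    rwa [hmap] at this⟩

end Cfsg.Agent.TwoGenTw
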