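import Cfsg.Agent.TwoGenTw.Comm

/-! Small common steps for two-generation of twisted groups (owner: helper17). -/

set_option autoImplicit false

namespace Cfsg.Agent.TwoGenTw

open Cfsg.Lie Cfsg.Agent.ChevGrp Cfsg.Agent.ChevTw

/-- A generator of a finite cyclic group stays one under a coprime power. -/
theorem exists_pow_coprime {G : Type*} [Group G] [Finite G] {v : G} (hv : ∀ z : G, z ∈ Submonoid.powers v)
    {k : ℕ} (h : (Nat.card G).Coprime k) (z : G) : ∃ i : ℕ, (v ^ k) ^ i = z := by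
  obtain ⟨w, hw⟩ := (powCoprime h).surjective z
  obtain ⟨i, hi⟩ := Submonoid.mem_powers_iff _ _ |>.1 (hv w)
  exact ⟨i, by rw [← hw, powCoprime_apply, ← hi, ← pow_mul, ← pow_mul, mul_comm]⟩

theorem exists_units_powers (K : Type*) [Field K] [Finite K] : ∃ v : Kˣ, ∀ z : Kˣ, z ∈ Submonoid.powers v :=
  IsCyclic.exists_monoid_generator

/-- A power of a generator is not one when the group is not trivial. -/
theorem ne_one_of_gen {G : Type*} [Group G] [Finite G] (hG : 1 < Nat.card G) {x : G}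
    (hx : ∀ z : G, ∃ i : ℕ, x ^ i = z) : x ≠ 1 := by
  rintro rfl
  have : Subsingleton G := ⟨fun a b => by
    obtain ⟨i, rfl⟩ := hx a
    obtain ⟨j, rfl⟩ := hx b
    simp⟩
  exact absurd hG (by rw [Nat.card_eq_one_iff_unique.2 ⟨this, ⟨1⟩⟩]; exact lt_irrefl _)

/-- Two elements generate a subgroup as soon as every subgroup containing both contains it. -/
theorem two_gen_of_le {G : Type*} [Group G] (T : Subgroup G) {g g' : G} (hg : g ∈ T) (hg' : g' ∈ T)
    (h : ∀ M : Subgroup G, g ∈ M → g' ∈ M → T ≤ M) :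
    ∃ a b : ↥T, Subgroup.closure ({a, b} : Set ↥T) = ⊤ := by
  refine ⟨⟨g, hg⟩, ⟨g', hg'⟩, ?_⟩
  have hle := h ((Subgroup.closure ({⟨g, hg⟩, ⟨g', hg'⟩} : Set ↥T)).map T.subtype)
    ⟨⟨g, hg⟩, Subgroup.subset_closure (by simp), rfl⟩ ⟨⟨g', hg'⟩, Subgroup.subset_closure (by simp), rfl⟩
  refine eq_top_iff.2 fun x _ => ?_
  obtain ⟨y, hy, e⟩ := hle x.2
  rwa [← Subtype.ext e]

variable {D : ChevalleyDatum} {F : Type*} [Field F] {G : Type*} [Group G] {len : ℕ → ℕ}
  {S : Sys D F G} {T : Twist S} {ι : Type*} {O : Orbits T ι}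

theorem tau_mem_Hbar (hS : Rules D F) (hR : RootTable D len) (hM : S.HMul) (c : Fin D.rank → Fˣ) :
    S.tau hS hR hM c ∈ S.Hbar := by
  rw [← S.tau_range hS hR hM]
  exact ⟨c, rfl⟩

/-- The group is reached once every orbit class is. -/
theorem le_of_good (W : TwGroup O) {M : Subgroup G}
    (h : ∀ J, Good T M (O.posJ J) ∧ Good T M (O.negJ J)) : W.Tw ≤ M := by
  rw [W.gen, Subgroup.closure_le]
  rintro g ⟨J, hg | hg⟩
  · exact (h J).1 g hg
  · exact (h J).2 g hg

end Cfsg.Agent.TwoGenTw
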