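import Cfsg.Agent.TwoGenTw.Core
import Mathlib.Algebra.Polynomial.Roots

/-!
A fixed root subgroup is reached from commutators of two classes with commuting root groups (owner: helper17).
-/

set_option autoImplicit false

namespace Cfsg.Agent.TwoGenTw

open Cfsg.Lie Cfsg.Agent.ChevGrp Cfsg.Agent.ChevTw

/-- The constant of a commutator term. -/
def coefI (D : ChevalleyDatum) (a b : ℕ) : ℤ := ((D.commTerms a b).map fun c => c.2.1).sum

/-- The commutators of two lists of roots lie in the root group of `r`, which commutes with both. -/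
def PairOK (D : ChevalleyDatum) (La Lb : List ℕ) (r : ℕ) : Prop :=
  (∀ a ∈ La ++ Lb, r ≠ a ∧ r ≠ D.neg a ∧ D.commTerms a r = []) ∧
    ∀ a ∈ La, ∀ b ∈ Lb, b ≠ a ∧ b ≠ D.neg a ∧
      (D.commTerms a b = [] ∨ D.commTerms a b = [(r, coefI D a b, 1, 1)])

instance (D : ChevalleyDatum) (La Lb : List ℕ) (r : ℕ) : Decidable (PairOK D La Lb r) := by
  unfold PairOK; infer_instance

variable {D : ChevalleyDatum} {F : Type*} [Field F] {G : Type*} [Group G] {len : ℕ → ℕ}
  {S : Sys D F G}

theorem comm_lists {La Lb : List ℕ} {r : ℕ} (hr : r < D.nroots) (hla : ∀ a ∈ La, a < D.nroots)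
    (hlb : ∀ b ∈ Lb, b < D.nroots) (hok : PairOK D La Lb r) (t u : ℕ → F) :
    S.P Lb u * S.P La t = S.P La t * S.P Lb u *
      S.x r (-(La.map fun a => (Lb.map fun b => (coefI D a b : F) * u b).sum * t a).sum) := by
  have hc : ∀ a, a ∈ La ++ Lb → ∀ v w : F, Commute (S.x a v) (S.x r w) := by
    intro a ha v w
    obtain ⟨h1, h2, h3⟩ := hok.1 a ha
    have halt : a < D.nroots := (List.mem_append.1 ha).elim (hla a) (hlb a)
    exact x_commute S halt hr h1 h2 h3 v w
  have one : ∀ a ∈ La, ∀ Lb' : List ℕ, Lb' ⊆ Lb → S.P Lb' u * S.x a (t a) = S.x a (t a) * S.P Lb' u *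
      S.x r (-((Lb'.map fun b => (coefI D a b : F) * u b).sum * t a)) := by
    intro a ha Lb'
    induction Lb' with
    | nil => intro _; simp [Sys.P_nil, S.x_zero hr]
    | cons b Lb' ih =>
      intro hsub
      have hb : b ∈ Lb := hsub List.mem_cons_self
      obtain ⟨h1, h2, h3⟩ := hok.2 a ha b hb
      have e : S.x b (u b) * S.x a (t a) = S.x a (t a) * S.x b (u b) *
          S.x r (-((coefI D a b : F) * u b * t a)) := by
        rw [S.comm a (hla a ha) b (hlb b hb) h1 h2]
        congr 1
        rcases h3 with h3 | h3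
        · simp [ChevalleyDatum.commWord, coefI, h3, S.x_zero hr]
        · simp only [ChevalleyDatum.commWord, h3, List.map_cons, List.map_nil, List.prod_cons, List.prod_nil,
            mul_one, pow_one]
          congr 1
          ring
      have hcP : ∀ w : F, Commute (S.x r w) (S.P Lb' u) := fun w => by
        refine (Commute.list_prod_left _ _ fun g hg => ?_).symm
        obtain ⟨s, hs, rfl⟩ := List.mem_map.1 hg
        exact hc s (List.mem_append_right _ (hsub (List.mem_cons_of_mem _ hs))) _ _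
      rw [Sys.P_cons, mul_assoc, ih (fun x hx => hsub (List.mem_cons_of_mem _ hx))]
      simp only [← mul_assoc]
      rw [e, mul_assoc _ (S.x r _) (S.P Lb' u), (hcP _).eq, ← mul_assoc, mul_assoc _ (S.x r _) (S.x r _),
        S.x_add r hr]
      simp only [List.map_cons, List.sum_cons, mul_assoc]
      congr 3
      ring
  suffices ∀ La' : List ℕ, La' ⊆ La → S.P Lb u * S.P La' t = S.P La' t * S.P Lb u *
      S.x r (-(La'.map fun a => (Lb.map fun b => (coefI D a b : F) * u b).sum * t a).sum) from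
    this La (List.Subset.refl _)
  intro La'
  induction La' with
  | nil => intro _; simp [Sys.P_nil, S.x_zero hr]
  | cons a La' ih =>
    intro hsub
    have ha : a ∈ La := hsub List.mem_cons_self
    have hcP : ∀ w : F, Commute (S.x r w) (S.P La' t) := fun w => by
      refine (Commute.list_prod_left _ _ fun g hg => ?_).symm
      obtain ⟨s, hs, rfl⟩ := List.mem_map.1 hg
      exact hc s (List.mem_append_left _ (hsub (List.mem_cons_of_mem _ hs))) _ _
    rw [Sys.P_cons, ← mul_assoc, one a ha Lb (List.Subset.refl _), mul_assoc _ (S.x r _), (hcP _).eq,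
      ← mul_assoc, mul_assoc (S.x a (t a)) (S.P Lb u), ih (fun x hx => hsub (List.mem_cons_of_mem _ hx))]
    simp only [← mul_assoc]
    rw [mul_assoc _ (S.x r _) (S.x r _), S.x_add r hr]
    simp only [List.map_cons, List.sum_cons]
    congr 2
    ring

variable {T : Twist S} {ι : Type*} {O : Orbits T ι}

/-- The fixed root subgroup of `r` is reached. -/
theorem good_root [Fintype F] (hR : RootTable D len) (W : TwGroup O) {A : Set ℕ}
    (C : AbClass T A) {φ : (Fin D.rank → ℤ) →+ ℤ} (hA : UClosed D len φ A) {M : Subgroup G}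
    (hGood : Good T M A) {q : ℕ} (e : ℕ → ℕ) (he : ∀ l : F, l ^ q = l → ∀ r ∈ C.L, l ^ e r = l)
    (hX : ∀ s : F, C.X s = S.P C.L fun r => s ^ e r)
    (hcard : ∀ r ∈ C.L, e r < Fintype.card F)
    (hinj : ∀ r ∈ C.L, ∀ r' ∈ C.L, e r = e r' → r = r')
    {wb : List (Fin D.rank)} (hwb : HasWord W M wb) {r : ℕ} (hr : r < D.nroots)
    (hok : PairOK D C.L (C.L.map (act D wb)) r) {a0 b0 : ℕ} (ha0 : a0 ∈ C.L)
    (hb0 : (C.L.map (act D wb)).filter (fun b => decide (coefI D a0 b ≠ 0)) = [b0])
    (hC0 : coefI D a0 b0 * coefI D a0 b0 = 1)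
    (hρ : T.ρ r = r) {ε : F} (hf : ∀ t, T.f r t = ε * t ^ q)
    (hU : UClosed D len (htHom D) ({r} : Set ℕ) ∨ UClosed D len (-htHom D) ({r} : Set ℕ)) :
    Good T M ({r} : Set ℕ) := by
  classical
  obtain ⟨n, hnM, hnT, c, hc, hnc⟩ := hwb
  have hlt : ∀ a ∈ C.L, a < D.nroots := fun a ha => hA.lt a ((C.enum.2 a).1 ha)
  have hltb : ∀ b ∈ C.L.map (act D wb), b < D.nroots := by
    intro b hb
    obtain ⟨a, ha, rfl⟩ := List.mem_map.1 hb
    exact hR.act_lt wb (hlt a ha)
  set u : ℕ → F := fun b => c (act D wb.reverse b) with hu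
  have hB : n * C.X 1 * n⁻¹ = S.P (C.L.map (act D wb)) u := by
    rw [hX, conj_P hnc hlt, Sys.P, List.map_map]
    congr 1
    refine List.map_congr_left fun a ha => ?_
    simp only [Function.comp_apply, hu, hR.act_reverse_act wb (hlt a ha), one_pow, mul_one]
  have hu0 : ∀ b ∈ C.L.map (act D wb), u b ≠ 0 := by
    intro b hb
    obtain ⟨a, ha, rfl⟩ := List.mem_map.1 hb
    rw [hu]
    simp only [hR.act_reverse_act wb (hlt a ha)]
    exact right_ne_zero_of_mul_eq_one (hc a (hlt a ha))
  set d : ℕ → F := fun a => ((C.L.map (act D wb)).map fun b => (coefI D a b : F) * u b).sum with hd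
  have hmemW : ∀ s, C.X s ∈ M ∧ T.sig (C.X s) = C.X s := fun s =>
    ⟨hGood _ ((C.spec _).2 ⟨s, rfl⟩), ((C.spec _).2 ⟨s, rfl⟩).2⟩
  set val : F → F := fun s => -(C.L.map fun a => d a * s ^ e a).sum with hval
  have hGX : ∀ s, C.X s ∈ S.Gbar := fun s =>
    Twist.US_le_Gbar (fun r hr => hA.lt r hr) ((C.spec _).2 ⟨s, rfl⟩).1
  have hxv : ∀ s, S.x r (val s) ∈ M ∧ T.sig (S.x r (val s)) = S.x r (val s) := by
    intro s
    have hg : n * C.X 1 * n⁻¹ ∈ M := mul_mem (mul_mem hnM (hmemW 1).1) (inv_mem hnM)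
    have hgG : n * C.X 1 * n⁻¹ ∈ S.Gbar := mul_mem (mul_mem (W.Tw_le hnT) (hGX 1)) (inv_mem (W.Tw_le hnT))
    have hgf : T.sig (n * C.X 1 * n⁻¹) = n * C.X 1 * n⁻¹ := by
      rw [sig_conj (W.Tw_le hnT) (hGX 1) (W.fixed hnT), (hmemW 1).2]
    have key : S.x r (val s) = (n * C.X 1 * n⁻¹)⁻¹ * (C.X s)⁻¹ * (n * C.X 1 * n⁻¹) * C.X s := by
      have e1 := comm_lists (S := S) hr hlt hltb hok (fun a => s ^ e a) u
      rw [← hX, ← hB] at e1
      rw [mul_assoc _ (n * C.X 1 * n⁻¹) (C.X s), e1]
      simp only [hval, hd]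
      group
    rw [key]
    refine ⟨mul_mem (mul_mem (mul_mem (inv_mem hg) (inv_mem (hmemW s).1)) hg) (hmemW s).1, ?_⟩
    rw [T.sig_mul _ (mul_mem (mul_mem (inv_mem hgG) (inv_mem (hGX s))) hgG) _ (hGX s),
      T.sig_mul _ (mul_mem (inv_mem hgG) (inv_mem (hGX s))) _ hgG,
      T.sig_mul _ (inv_mem hgG) _ (inv_mem (hGX s)), T.sig_inv hgG, T.sig_inv (hGX s), hgf, (hmemW s).2]
  have hfix : ∀ v, T.sig (S.x r v) = S.x r v → ε * v ^ q = v := by
    intro v hv
    rw [T.sig_x r hr, hρ, hf] at hv
    rcases hU with h | h <;>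
      exact S.coef_unique hR h (L := [r]) ⟨List.nodup_singleton _, fun x => List.mem_singleton⟩
        (t := fun _ => ε * v ^ q) (t' := fun _ => v) (by simpa [Sys.P] using congrArg S.θ hv) r rfl
  have hlin : ∀ l : F, l ^ q = l → ∀ s, val (l * s) = l * val s := by
    intro l hl s
    simp only [hval, mul_neg, ← List.sum_map_mul_left]
    congr 2
    refine List.map_congr_left fun a ha => ?_
    rw [mul_pow, he l hl a ha]
    ring
  obtain ⟨s0, hs0⟩ : ∃ s, val s ≠ 0 := by
    by_contra hall
    push Not at hall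
    have hd0 : d a0 ≠ 0 := by
      have hb0m : b0 ∈ C.L.map (act D wb) :=
        (List.mem_filter.1 (hb0 ▸ List.mem_singleton_self b0 : b0 ∈ _)).1
      have hd1 : d a0 = (coefI D a0 b0 : F) * u b0 := by
        have : ∀ L : List ℕ, (L.map fun b => (coefI D a0 b : F) * u b).sum =
            ((L.filter fun b => decide (coefI D a0 b ≠ 0)).map fun b => (coefI D a0 b : F) * u b).sum := by
          intro L
          induction L with
          | nil => rfl
          | cons b L ih =>
            by_cases hb : coefI D a0 b = 0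
            · simp [hb, ih]
            · simp [hb, ih]
        rw [hd]
        simp only
        rw [this, hb0]
        simp
      rw [hd1]
      refine mul_ne_zero ?_ (hu0 b0 hb0m)
      intro h0
      have := congrArg (fun z : ℤ => (z : F)) hC0
      simp [h0] at this
    let p : Polynomial F := ∑ a ∈ C.L.toFinset, Polynomial.monomial (e a) (d a)
    have hp : p.natDegree < Fintype.card F := by
      refine lt_of_le_of_lt (Polynomial.natDegree_sum_le_of_forall_le _ _ (n := Fintype.card F - 1) fun a ha => ?_)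
        (Nat.sub_lt Fintype.card_pos Nat.one_pos)
      have := hcard a (List.mem_toFinset.1 ha)
      exact (Polynomial.natDegree_monomial_le _).trans (by omega)
    have heval : ∀ s, p.eval s = 0 := by
      intro s
      have h1 := hall s
      simp only [hval, neg_eq_zero] at h1
      rw [Polynomial.eval_finset_sum]
      simp only [Polynomial.eval_monomial]
      rwa [List.sum_toFinset _ C.enum.1]
    have hz : p = 0 := Polynomial.eq_zero_of_natDegree_lt_card_of_eval_eq_zero p
      (f := id) Function.injective_id heval hp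
    apply hd0
    have h2 : p.coeff (e a0) = d a0 := by
      simp only [p, Polynomial.finset_sum_coeff, Polynomial.coeff_monomial]
      rw [Finset.sum_eq_single a0]
      · simp
      · intro b hb hne
        rw [if_neg fun h => hne (hinj b (List.mem_toFinset.1 hb) a0 ha0 h)]
      · intro h
        exact absurd (List.mem_toFinset.2 ha0) h
    rw [← h2, hz, Polynomial.coeff_zero]
  intro g hg
  have hrule : ∀ v : F, T.sig (S.x r v) = S.x r v → S.x r v ∈ M := by
    intro v hv
    have e1 := hfix v hv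
    have e2 := hfix _ (hxv s0).2
    set l := v / val s0
    have hl : l ^ q = l := by
      have hε : ε ≠ 0 := fun h => hs0 (by rw [← e2, h, zero_mul])
      rw [div_pow, div_eq_div_iff (pow_ne_zero _ hs0) hs0]
      have : ε * (v ^ q * val s0) = ε * (v * val s0 ^ q) := by
        calc ε * (v ^ q * val s0) = (ε * v ^ q) * val s0 := by ring
          _ = v * (ε * val s0 ^ q) := by rw [e1, e2]
          _ = _ := by ring
      exact mul_left_cancel₀ hε this
    have := (hxv (l * s0)).1
    rwa [hlin l hl, div_mul_cancel₀ _ hs0] at this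
  obtain ⟨hgU, hgσ⟩ := hg
  obtain ⟨v, rfl⟩ : ∃ v, g = S.x r v := by
    rcases hU with h | h <;>
    · obtain ⟨t, ht'⟩ := S.exists_coef hR h (L := [r]) ⟨List.nodup_singleton _, fun x => List.mem_singleton⟩ hgU
      exact ⟨t r, by simpa [Sys.P] using ht'⟩
  exact hrule v hgσ

end Cfsg.Agent.TwoGenTw
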