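import Cfsg.Agent.ChevTw.TwTorus
import Cfsg.Agent.ChevTw.TwBN
import Cfsg.Agent.ChevTw.TwPerfect
import Cfsg.Agent.ChevTw.TwA1

/-!
Two-generation of twisted groups: a torus element together with a monomial element times a root element
(owner: helper17).

If `M` contains a torus element `h` and `n * y`, then it contains `n * ⁅⁅y, h⁆, n⁻¹ h n⁆ * n⁻¹`; from this
the whole class of `y` and `n` itself are recovered. The other classes follow by conjugation and commutators.
-/

set_option autoImplicit false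

namespace Cfsg.Agent.TwoGenTw

open Cfsg.Lie Cfsg.Agent.ChevGrp Cfsg.Agent.ChevTw
open scoped commutatorElement

/-- The group-theoretical step. -/
theorem core {G : Type*} [Group G] {M : Subgroup G} {h n y : G} (X : Set G)
    (hcomm : Commute h (n⁻¹ * h * n)) (hh : h ∈ M) (ha : n * y ∈ M)
    (hy : y ∈ X) (hXc : ∀ x ∈ X, y * x * y⁻¹ ∈ X)
    (fill : ∀ P : Subgroup G, n⁻¹ * h * n ∈ P → ⁅⁅y, h⁆, n⁻¹ * h * n⁆ ∈ P → X ⊆ P) :
    n ∈ M ∧ ∀ x ∈ X, x ∈ M := by
  set h' := n⁻¹ * h * n with hh'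
  let P : Subgroup G := M.comap (MulAut.conj n).toMonoidHom
  have hP : ∀ g : G, g ∈ P ↔ n * g * n⁻¹ ∈ M := fun g => Iff.rfl
  have h1 : h' ∈ P := by
    rw [hP, hh']
    simpa [mul_assoc] using hh
  have h2 : ⁅⁅y, h⁆, h'⁆ ∈ P := by
    rw [hP]
    have hu : n * y * h * (n * y)⁻¹ ∈ M := mul_mem (mul_mem ha hh) (inv_mem ha)
    have h3 : n * ⁅⁅y, h⁆ * h, h'⁆ * n⁻¹ ∈ M := by
      have := mul_mem (mul_mem (mul_mem hu hh) (inv_mem hu)) (inv_mem hh)
      simpa [hh', commutatorElement_def, mul_assoc] using this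
    have h4 : ⁅⁅y, h⁆ * h, h'⁆ = ⁅⁅y, h⁆, h'⁆ := by
      simp only [commutatorElement_def]
      calc y * h * y⁻¹ * h⁻¹ * h * h' * (y * h * y⁻¹ * h⁻¹ * h)⁻¹ * h'⁻¹
          = y * h * y⁻¹ * h⁻¹ * (h * h') * h⁻¹ * (y * h * y⁻¹ * h⁻¹)⁻¹ * h'⁻¹ := by group
        _ = y * h * y⁻¹ * h⁻¹ * (h' * h) * h⁻¹ * (y * h * y⁻¹ * h⁻¹)⁻¹ * h'⁻¹ := by rw [hcomm.eq]
        _ = _ := by group
    rwa [h4] at h3
  have hX := fill P h1 h2
  have hXM : ∀ x ∈ X, x ∈ M := by
    intro x hx
    have h5 := (hP _).1 (hX (hXc x hx))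
    have h6 := mul_mem (mul_mem (inv_mem ha) h5) ha
    simpa [mul_assoc] using h6
  refine ⟨?_, hXM⟩
  have := mul_mem ha (inv_mem (hXM y hy))
  simpa using this

theorem units_pow_surj {F : Type*} [Field F] [Finite F] {μ : Fˣ} (hμ : ∀ z : Fˣ, ∃ k : ℕ, μ ^ k = z) :
    ∀ z : F, z ≠ 0 → ∃ k : ℕ, (μ : F) ^ k = z := fun z hz => by
  obtain ⟨k, hk⟩ := hμ (Units.mk0 z hz)
  exact ⟨k, by rw [← Units.val_pow_eq_pow_val, hk, Units.val_mk0]⟩

variable {D : ChevalleyDatum} {F : Type*} [Field F] {G : Type*} [Group G] {len : ℕ → ℕ}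
  {S : Sys D F G} {T : Twist S} {ι : Type*} {O : Orbits T ι}

/-- `L` is a list of roots whose root groups commute. -/
def CommList (D : ChevalleyDatum) (L : List ℕ) : Prop :=
  ∀ r ∈ L, ∀ s ∈ L, s ≠ r → s ≠ D.neg r ∧ D.commTerms r s = []

theorem P_add {L : List ℕ} (hlt : ∀ r ∈ L, r < D.nroots) (hcl : CommList D L) (hnd : L.Nodup) (t t' : ℕ → F) :
    S.P L t * S.P L t' = S.P L (t + t') := by
  induction L with
  | nil => simp [Sys.P_nil]
  | cons a L ih =>
    have hc : Commute (S.P L t) (S.x a (t' a)) := by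
      refine Commute.list_prod_left _ _ fun g hg => ?_
      obtain ⟨s, hs, rfl⟩ := List.mem_map.1 hg
      have hne : s ≠ a := fun e => (List.nodup_cons.1 hnd).1 (e ▸ hs)
      obtain ⟨h1, h2⟩ := hcl a List.mem_cons_self s (List.mem_cons_of_mem _ hs) hne
      exact (x_commute S (hlt a List.mem_cons_self) (hlt s (List.mem_cons_of_mem _ hs)) hne h1 h2 _ _).symm
    rw [Sys.P_cons, Sys.P_cons, Sys.P_cons, Pi.add_apply, ← S.x_add a (hlt a List.mem_cons_self),
      ← ih (fun r hr => hlt r (List.mem_cons_of_mem _ hr))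
        (fun r hr s hs => hcl r (List.mem_cons_of_mem _ hr) s (List.mem_cons_of_mem _ hs))
        (List.nodup_cons.1 hnd).2,
      show S.x a (t a) * S.P L t * (S.x a (t' a) * S.P L t') =
        S.x a (t a) * (S.P L t * S.x a (t' a)) * S.P L t' by simp [mul_assoc], hc.eq]
    simp [mul_assoc]

theorem conj_P {g : G} {w : List (Fin D.rank)} {c : ℕ → F}
    (hg : ∀ s < D.nroots, ∀ t : F, g * S.x s t * g⁻¹ = S.x (act D w s) (c s * t)) :
    ∀ {L : List ℕ}, (∀ r ∈ L, r < D.nroots) → ∀ t : ℕ → F,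
      g * S.P L t * g⁻¹ = (L.map fun r => S.x (act D w r) (c r * t r)).prod := by
  intro L hL t
  induction L with
  | nil => simp [Sys.P_nil]
  | cons a L ih =>
    rw [Sys.P_cons, List.map_cons, List.prod_cons, ← hg a (hL a List.mem_cons_self),
      ← ih fun r hr => hL r (List.mem_cons_of_mem _ hr)]
    simp [mul_assoc]

/-- A class with commuting root groups, parametrised by the coefficient at one root. -/
structure AbClass (T : Twist S) (A : Set ℕ) where
  L : List ℕ
  a : ℕ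
  enum : Enum A L
  comm : CommList D L
  mem_a : a ∈ A
  X : F → G
  spec : ∀ g, g ∈ fixUS T A ↔ ∃ s, g = X s
  coef : ∀ s, ∃ c : ℕ → F, X s = S.P L c ∧ c a = s

namespace AbClass

variable {A : Set ℕ} {φ : (Fin D.rank → ℤ) →+ ℤ}

theorem add (C : AbClass T A) (hR : RootTable D len) (hA : UClosed D len φ A) (s s' : F) :
    C.X s * C.X s' = C.X (s + s') := by
  have hlt : ∀ r ∈ C.L, r < D.nroots := fun r hr => hA.lt r ((C.enum.2 r).1 hr)
  have hfix : C.X s * C.X s' ∈ fixUS T A := by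
    have h1 := (C.spec _).2 ⟨s, rfl⟩
    have h2 := (C.spec _).2 ⟨s', rfl⟩
    refine ⟨mul_mem h1.1 h2.1, ?_⟩
    have hG := Twist.US_le_Gbar (S := S) (A := A) (fun r hr => hA.lt r hr)
    rw [T.sig_mul _ (hG h1.1) _ (hG h2.1), h1.2, h2.2]
  obtain ⟨u, hu⟩ := (C.spec _).1 hfix
  obtain ⟨c, hc, hca⟩ := C.coef s
  obtain ⟨c', hc', hca'⟩ := C.coef s'
  obtain ⟨e, he, hea⟩ := C.coef u
  rw [hu]
  congr 1
  have h3 := hu
  rw [hc, hc', P_add hlt C.comm C.enum.1, he] at h3
  have := S.coef_unique hR hA C.enum (congrArg S.θ h3) C.a C.mem_a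
  rw [Pi.add_apply, hca, hca', hea] at this
  exact this.symm

theorem map_zero (C : AbClass T A) (hR : RootTable D len) (hA : UClosed D len φ A) : C.X 0 = 1 := by
  have := C.add hR hA 0 0
  simpa using this

theorem inv (C : AbClass T A) (hR : RootTable D len) (hA : UClosed D len φ A) (s : F) :
    (C.X s)⁻¹ = C.X (-s) := by
  rw [inv_eq_iff_mul_eq_one, C.add hR hA, add_neg_cancel, C.map_zero hR hA]

theorem torus_conj (C : AbClass T A) (W : TwGroup O) (hS : Rules D F) (hR : RootTable D len)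
    (hA : UClosed D len φ A) {g : G} (hg : g ∈ S.Hbar) (hgT : g ∈ W.Tw) {χ : F}
    (hχ : g * S.x C.a 1 * g⁻¹ = S.x C.a χ) (s : F) : g * C.X s * g⁻¹ = C.X (χ * s) := by
  classical
  obtain ⟨c0, -, hc0⟩ := S.conjP_Hbar hS hR hg
  simp only [act_nil] at hc0
  have hlt : ∀ r ∈ C.L, r < D.nroots := fun r hr => hA.lt r ((C.enum.2 r).1 hr)
  have hP : ∀ t : ℕ → F, g * S.P C.L t * g⁻¹ = S.P C.L (fun r => c0 r * t r) := fun t => by
    rw [conj_P (w := []) (by simpa [act_nil] using hc0) hlt]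
    rfl
  have hca : c0 C.a = χ := by
    have halt := hA.lt _ C.mem_a
    have e := hc0 C.a halt 1
    rw [hχ, mul_one] at e
    set δ : F → ℕ → F := fun v r => if r = C.a then v else 0
    have hδ : ∀ v, S.P C.L (δ v) = S.x C.a v := by
      intro v
      have hmem := (C.enum.2 C.a).2 C.mem_a
      have key : ∀ L : List ℕ, (∀ r ∈ L, r < D.nroots) → L.Nodup →
          S.P L (δ v) = if C.a ∈ L then S.x C.a v else 1 := by
        intro L hL hnd
        induction L with
        | nil => simp [Sys.P_nil]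
        | cons r L ih =>
          rw [Sys.P_cons, ih (fun x hx => hL x (List.mem_cons_of_mem _ hx)) (List.nodup_cons.1 hnd).2]
          by_cases hr : r = C.a
          · subst hr
            simp [δ, (List.nodup_cons.1 hnd).1]
          · have : δ v r = 0 := if_neg hr
            simp [this, S.x_zero (hL r List.mem_cons_self), Ne.symm hr]
      rw [key _ hlt C.enum.1, if_pos hmem]
    have e2 : S.P C.L (δ χ) = S.P C.L (δ (c0 C.a)) := by rw [hδ, hδ, e]
    have := S.coef_unique hR hA C.enum (congrArg S.θ e2) C.a C.mem_a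
    simpa [δ] using this.symm
  obtain ⟨u, hu⟩ := (C.spec _).1 (W.conj_neg_fix hgT (S.conjP_Hbar hS hR hg) (fun r hr => hA.lt r hr)
    (fun r hr => by rwa [act_nil]) ((C.spec _).2 ⟨s, rfl⟩))
  rw [hu]
  congr 1
  obtain ⟨c, hc, hcs⟩ := C.coef s
  obtain ⟨e, he, hea⟩ := C.coef u
  rw [hc, hP, he] at hu
  have := S.coef_unique hR hA C.enum (congrArg S.θ hu) C.a C.mem_a
  rw [hcs, hea, hca] at this
  exact this.symm

/-- The class of `y = X 1` and the monomial element are recovered from the two generators. -/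
theorem core_mem (C : AbClass T A) (W : TwGroup O) (hS : Rules D F) (hR : RootTable D len) (hM : S.HMul)
    (hA : UClosed D len φ A) {h n : G} (hh : h ∈ S.Hbar) (hhT : h ∈ W.Tw) (hn : n ∈ S.Nbar) (hnT : n ∈ W.Tw)
    {w : List (Fin D.rank)} (hw : S.ConjP n w) {lam μ : F}
    (hlam : h * S.x C.a 1 * h⁻¹ = S.x C.a lam) (hlam1 : lam ≠ 1)
    (hμ : ∀ t, h * S.x (act D w C.a) t * h⁻¹ = S.x (act D w C.a) (μ * t)) (hμ1 : μ ≠ 1)
    (hgen : ∀ z : F, z ≠ 0 → ∃ k : ℕ, μ ^ k = z)
    {M : Subgroup G} (hhM : h ∈ M) (haM : n * C.X 1 ∈ M) :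
    n ∈ M ∧ ∀ g ∈ fixUS T A, g ∈ M := by
  set h' := n⁻¹ * h * n with hh'
  have hh'H : h' ∈ S.Hbar := by
    have := Sys.conj_mem_Hbar hS hR (inv_mem hn) hh
    simpa using this
  have hh'T : h' ∈ W.Tw := mul_mem (mul_mem (inv_mem hnT) hhT) hnT
  have hμ' : h' * S.x C.a 1 * h'⁻¹ = S.x C.a μ := by
    obtain ⟨c, hc, hnc⟩ := hw
    have halt := hA.lt _ C.mem_a
    have e1 := hnc C.a halt 1
    have e2 := hnc C.a halt μ
    rw [mul_one] at e1
    rw [mul_comm] at e2
    rw [← hμ, ← e1] at e2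
    have e3 : h' * S.x C.a 1 * h'⁻¹ = n⁻¹ * (h * (n * S.x C.a 1 * n⁻¹) * h⁻¹) * n := by
      simp [hh', mul_assoc]
    rw [e3, ← e2]
    simp [mul_assoc]
  have key := core (M := M) (h := h) (n := n) (y := C.X 1) (Set.range C.X)
    (S.Hbar_comm hS hR hM h hh h' hh'H) hhM haM ⟨1, rfl⟩
    (by rintro _ ⟨s, rfl⟩; exact ⟨s, by rw [C.add hR hA, C.inv hR hA, C.add hR hA]; congr 1; ring⟩) ?_
  · exact ⟨key.1, fun g hg => by obtain ⟨s, rfl⟩ := (C.spec g).1 hg; exact key.2 _ ⟨s, rfl⟩⟩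
  intro P hP1 hP2
  have e1 : ∀ (g : G), g ∈ S.Hbar → g ∈ W.Tw → ∀ χ : F, g * S.x C.a 1 * g⁻¹ = S.x C.a χ → ∀ s,
      ⁅C.X s, g⁆ = C.X ((1 - χ) * s) := by
    intro g hg hgT χ hχ s
    rw [commutatorElement_def, show C.X s * g * (C.X s)⁻¹ * g⁻¹ = C.X s * (g * (C.X s)⁻¹ * g⁻¹) by group,
      C.inv hR hA, C.torus_conj W hS hR hA hg hgT hχ, C.add hR hA]
    congr 1
    ring
  rw [e1 h hh hhT lam hlam 1, mul_one, e1 h' hh'H hh'T μ hμ'] at hP2
  set z := (1 - μ) * (1 - lam) with hz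
  have hz0 : z ≠ 0 := mul_ne_zero (sub_ne_zero.2 (Ne.symm hμ1)) (sub_ne_zero.2 (Ne.symm hlam1))
  have hk : ∀ k : ℕ, C.X (μ ^ k * z) ∈ P := by
    intro k
    induction k with
    | zero => simpa using hP2
    | succ k ih =>
      rw [pow_succ', mul_assoc, ← C.torus_conj W hS hR hA hh'H hh'T hμ']
      exact mul_mem (mul_mem hP1 ih) (inv_mem hP1)
  rintro _ ⟨s, rfl⟩
  by_cases hs : s = 0
  · rw [hs, C.map_zero hR hA]; exact one_mem P
  obtain ⟨k, hk'⟩ := hgen (s / z) (div_ne_zero hs hz0)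
  have := hk k
  rwa [hk', div_mul_cancel₀ _ hz0] at this

end AbClass

/-- All fixed elements of a set of roots lie in `M`. -/
def Good (T : Twist S) (M : Subgroup G) (A : Set ℕ) : Prop := ∀ g ∈ fixUS T A, g ∈ M

/-- `M` contains a fixed monomial element of the word. -/
def HasWord (W : TwGroup O) (M : Subgroup G) (w : List (Fin D.rank)) : Prop :=
  ∃ n ∈ M, n ∈ W.Tw ∧ S.ConjP n w

theorem Good.mono {M : Subgroup G} {A B : Set ℕ} (h : Good T M A) (hBA : B ⊆ A) : Good T M B :=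
  fun g hg => h g ⟨S.US_mono hBA hg.1, hg.2⟩

theorem Good.image {M : Subgroup G} {W : TwGroup O} (hR : RootTable D len) {w : List (Fin D.rank)}
    (hw : HasWord W M w) {A : Set ℕ} (hA : ∀ r ∈ A, r < D.nroots) (h : Good T M A) :
    Good T M (act D w '' A) := by
  obtain ⟨n, hnM, hnT, hc⟩ := hw
  intro g hg
  have hlt : ∀ r ∈ act D w '' A, r < D.nroots := by
    rintro _ ⟨r, hr, rfl⟩
    exact hR.act_lt w (hA r hr)
  have := h _ (W.conj_neg_fix (inv_mem hnT) (hc.inv hR) hlt (by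
    rintro _ ⟨r, hr, rfl⟩
    rwa [hR.act_reverse_act w (hA r hr)]) hg)
  have h2 := mul_mem (mul_mem hnM this) (inv_mem hnM)
  simpa [mul_assoc] using h2

theorem hasWord_of_good {M : Subgroup G} {W : TwGroup O} (hS : Rules D F) (hR : RootTable D len) (J : ι)
    (hp : Good T M (O.posJ J)) (hn : Good T M (O.negJ J)) : HasWord W M (O.wJ J) := by
  obtain ⟨v, hv, hv1⟩ := W.exNeg J
  obtain ⟨c, hc, u, hu, n, -, hnc, hnT, e⟩ := W.neg_decomp hS hR J hv hv1
  refine ⟨n, ?_, hnT, hnc⟩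
  have := mul_mem (mul_mem (inv_mem (hp c hc)) (hn v hv)) (inv_mem (hp u hu))
  rw [e] at this
  simpa [mul_assoc] using this

/-- One round of closing a list of classes under the given words. -/
def growCls (D : ChevalleyDatum) (ws : List (List (Fin D.rank))) (ls : List (List ℕ)) : List (List ℕ) :=
  (ls ++ ls.flatMap fun L => ws.map fun w => L.map (act D w)).foldl
    (fun acc L => if acc.any (fun L' => L.all L'.contains) then acc else acc ++ [L]) []

/-- Closing a list of classes under the given words. -/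
def closeCls (D : ChevalleyDatum) (ws : List (List (Fin D.rank))) : ℕ → List (List ℕ) → List (List ℕ)
  | 0, ls => ls
  | k + 1, ls => closeCls D ws k (growCls D ws ls)

/-- `target` is a part of one of the classes reached from `start`. -/
def reachCls (D : ChevalleyDatum) (ws : List (List (Fin D.rank))) (k : ℕ) (start : List (List ℕ))
    (target : List ℕ) : Bool :=
  (closeCls D ws k start).any fun L => target.all L.contains

theorem good_of_reach {M : Subgroup G} {W : TwGroup O} (hR : RootTable D len)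
    {ws : List (List (Fin D.rank))} (hws : ∀ w ∈ ws, HasWord W M w) (k : ℕ) {start : List (List ℕ)}
    (hstart : ∀ L ∈ start, (∀ r ∈ L, r < D.nroots) ∧ Good T M {r | r ∈ L}) {target : List ℕ}
    (h : reachCls D ws k start target = true) : Good T M {r | r ∈ target} := by
  let Q : List ℕ → Prop := fun L => (∀ r ∈ L, r < D.nroots) ∧ Good T M {r | r ∈ L}
  have hfold : ∀ (l acc : List (List ℕ)), (∀ L ∈ l, Q L) → (∀ L ∈ acc, Q L) →
      ∀ L ∈ l.foldl (fun acc L => if acc.any (fun L' => L.all L'.contains) then acc else acc ++ [L]) acc, Q L := by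
    intro l
    induction l with
    | nil => exact fun acc _ h => h
    | cons a l ih =>
      intro acc hl hacc
      rw [List.foldl_cons]
      refine ih _ (fun L hL => hl L (List.mem_cons_of_mem _ hL)) ?_
      split_ifs
      · exact hacc
      · intro L hL
        rcases List.mem_append.1 hL with h1 | h1
        · exact hacc L h1
        · rw [List.mem_singleton] at h1
          exact h1 ▸ hl a List.mem_cons_self
  have hgrow : ∀ ls : List (List ℕ), (∀ L ∈ ls, Q L) → ∀ L ∈ growCls D ws ls, Q L := by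
    intro ls hls
    refine hfold _ [] (fun L hL => ?_) (by simp)
    rcases List.mem_append.1 hL with h1 | h1
    · exact hls L h1
    · simp only [List.mem_flatMap, List.mem_map] at h1
      obtain ⟨L₀, hL₀, w, hw, rfl⟩ := h1
      refine ⟨fun r hr => ?_, ?_⟩
      · obtain ⟨r₀, hr₀, rfl⟩ := List.mem_map.1 hr
        exact hR.act_lt w ((hls L₀ hL₀).1 r₀ hr₀)
      · have := Good.image hR (hws w hw) (hls L₀ hL₀).1 (hls L₀ hL₀).2
        refine this.mono fun r hr => ?_
        obtain ⟨r₀, hr₀, rfl⟩ := List.mem_map.1 hr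
        exact ⟨r₀, hr₀, rfl⟩
  have hclose : ∀ (k : ℕ) (ls : List (List ℕ)), (∀ L ∈ ls, Q L) → ∀ L ∈ closeCls D ws k ls, Q L := by
    intro k
    induction k with
    | zero => exact fun ls h => h
    | succ k ih => exact fun ls h => ih _ (hgrow ls h)
  simp only [reachCls, List.any_eq_true, List.all_eq_true, List.contains_iff_mem] at h
  obtain ⟨L, hL, hsub⟩ := h
  exact (hclose k start hstart L hL).2.mono fun r hr => hsub r hr

end Cfsg.Agent.TwoGenTw
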